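import Cfsg.Agent.SNG.TTs
import Cfsg.Agent.SNG.CK
import Cfsg.Agent.H98.ExtSL

set_option autoImplicit false
set_option linter.unusedSectionVars false

namespace Cfsg.Agent.SNG

open MulAction Module Cfsg.Geo
open scoped ComplexConjugate

variable {F L : Type*} [Field F] [Fintype F] [Field L] [Algebra F L] [Finite L]
  {G : Subgroup (L ≃ₗ[F] L)}

theorem Ov.sl_le (h : Ov G) (hn : (finrank F L).Prime) (h11 : 11 ≤ finrank F L)
    (hnn : ¬ (sg G (T0 F L)).Normal) : H27.SLV F L ≤ G := by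
  obtain ⟨G', hle, hm⟩ := h.exists_min hn h11 hnn
  haveI := finite_gl (F := F) (L := L)
  have ht := hm.tt hn h11
  refine le_trans (H27.SLV_le fun v φ hφ => ?_) hle
  obtain ⟨g, hg⟩ := ht.tv_all (ck_all ht (by omega)) hφ
  exact ⟨g, g.2, hg⟩

theorem main_gam (hn : (finrank F L).Prime) {g : L ≃ₗ[F] L} {t t' : L}
    (ht : ∀ c : F, algebraMap F L c ≠ t) (h : ∀ x, g (t * x) = t' * g x) : g ∈ H98.GamK L := by
  let A : Subalgebra F L :=
    { carrier := {k | ∃ k', ∀ x, g (k * x) = k' * g x}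
      mul_mem' := by
        rintro a b ⟨a', ha⟩ ⟨b', hb⟩
        exact ⟨a' * b', fun x => by rw [mul_assoc, ha, hb, mul_assoc]⟩
      add_mem' := by
        rintro a b ⟨a', ha⟩ ⟨b', hb⟩
        exact ⟨a' + b', fun x => by rw [add_mul, map_add, ha, hb, add_mul]⟩
      algebraMap_mem' := fun c => ⟨algebraMap F L c, fun x => by
        rw [← Algebra.smul_def, ← Algebra.smul_def, map_smul]⟩ }
  have hA : ∀ k, k ∈ A := fun k => by
    have : Algebra.adjoin F {t} ≤ A := Algebra.adjoin_le (by rintro _ rfl; exact ⟨t', h⟩)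
    rw [adjoin_top hn ht] at this
    exact this trivial
  choose f hf using hA
  have key : ∀ k k', (∀ x, g (k * x) = k' * g x) → f k = k' := fun k k' hk => by
    have := (hf k (g.symm 1)).symm.trans (hk _)
    simpa using this
  obtain ⟨σ, hσ⟩ := H98.exists_aut_of_hom (F := F) (f := f) (key _ _ fun x => by simp)
    (fun a b => key _ _ fun x => by rw [add_mul, map_add, hf, hf, add_mul])
    (fun a b => key _ _ fun x => by rw [mul_assoc, hf, hf, mul_assoc])
    (fun c => key _ _ fun x => by rw [← Algebra.smul_def, ← Algebra.smul_def, map_smul])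
  exact ⟨σ, fun k x => by rw [hσ]; exact hf k x⟩

theorem main_proper (hn : (finrank F L).Prime) (h3 : 3 ≤ finrank F L) :
    ∃ g ∈ H27.SLV F L, g ∉ H98.GamK L := by
  obtain ⟨k, -, hk⟩ := exists_notMem (A := Submodule.span F {(1 : L)}) (B := ⊤) (by
    rw [finrank_span_singleton one_ne_zero, finrank_top]; omega)
  obtain ⟨w, -, hw⟩ := exists_notMem (A := Submodule.span F {(1 : L), k}) (B := ⊤) (by
    rw [rk_l2 one_ne_zero hk, finrank_top]; omega)
  obtain ⟨φ, h0, h1⟩ := sep hw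
  refine ⟨H27.tv 1 φ (h0 _ (left_l2 _ _)), H27.tv_mem_SLV _ _ _, ?_⟩
  rintro ⟨σ, hσ⟩
  have h2 : ∀ u, σ u = u + φ u • 1 := fun u => by
    have := hσ u 1
    rw [H27.tv_apply, H27.tv_apply, h0 _ (left_l2 _ _)] at this
    simpa using this.symm
  have h4 : (σ : L →ₐ[F] L) = AlgHom.id F L := AlgHom.ext_of_adjoin_eq_top
    (adjoin_top hn (u := k) fun c hc => hk (Submodule.mem_span_singleton.2
      ⟨c, by rw [← hc, Algebra.smul_def, mul_one]⟩)) (by
      rintro _ rfl
      simp [h2, h0 _ (right_l2 _ _)])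
  have h5 : σ w = w := DFunLike.congr_fun h4 w
  simp [h2, h1] at h5

theorem main_L (hn : (finrank F L).Prime) (h11 : 11 ≤ finrank F L) :
    IsMaximalIn (H27.SLV F L) (H98.GamK L ⊓ H27.SLV F L) := by
  refine H27.isMaximalIn_of inf_le_right ?_ fun M hH hM g hg hg' => ?_
  · obtain ⟨g, h1, h2⟩ := main_proper hn (by omega)
    exact ⟨g, h1, fun h => h2 h.1⟩
  have hO : Ov M := ⟨fun g hg => H27.mem_SLV.1 (hM hg), fun u hu => hH
    ⟨H98.mem_GamK_of_lin fun k x => by simp only [mu_apply, smul_eq_mul]; ring,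
      H27.mem_SLV.2 (by rw [det_mu]; exact mem_C0.1 hu)⟩⟩
  refine hO.sl_le hn h11 fun hN => hg' ⟨?_, hM hg⟩
  have hv := (num hn h11).hv1 (Nat.le_refl _)
  obtain ⟨⟨t, ht⟩, ht1⟩ : ∃ t : T0 F L, t ≠ 1 := by
    haveI : Nontrivial (T0 F L) := Finite.one_lt_card_iff_nontrivial.1 (by nlinarith)
    exact exists_ne 1
  have hC : t ∈ C0 F L := ht.1
  obtain ⟨u, -, hu⟩ := mem_sg.1 (hN.conj_mem ⟨_, hO.mem t hC⟩ (mem_sg.2 ⟨t, ht, rfl⟩) ⟨g, hg⟩)
  refine main_gam hn (t := t) (t' := u) (fun c hc => ht1 (Subtype.ext ?_)) fun x => ?_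
  · have : t ∈ T0 F L ⊓ S0 F L := ⟨ht, mem_S0.2 ⟨c, hc⟩⟩
    rwa [T0_inf_S0 hn h11] at this
  · have := DFunLike.congr_fun hu (g x)
    rw [mu_apply] at this
    rw [this]
    change _ = g (mu F L t (g⁻¹ (g x)))
    rw [H27.le_inv_apply, mu_apply]

theorem main_V {V : Type*} [AddCommGroup V] [Module F V] [Module L V] [IsScalarTower F L V]
    (hn : (finrank F L).Prime) (h11 : 11 ≤ finrank F L) (h1 : finrank L V = 1) :
    IsMaximalIn (H27.SLV F V) (H98.GamK L ⊓ H27.SLV F V) := by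
  haveI : FiniteDimensional L V := .of_finrank_eq_succ h1
  let e : V ≃ₗ[L] L := LinearEquiv.ofFinrankEq _ _ (by rw [h1, finrank_self])
  let e' : V ≃ₗ[F] L := e.restrictScalars F
  let Φ : (V ≃ₗ[F] V) ≃* (L ≃ₗ[F] L) :=
    { toFun := fun g => e'.symm ≪≫ₗ g ≪≫ₗ e'
      invFun := fun g => e' ≪≫ₗ g ≪≫ₗ e'.symm
      left_inv := fun g => by ext x; simp
      right_inv := fun g => by ext x; simp
      map_mul' := fun g h => by ext x; simp [H27.le_mul_apply] }
  have hΦ : ∀ g x, Φ g x = e (g (e.symm x)) := fun g x => rfl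
  have h := H27.isMaximalIn_comap Φ (main_L hn h11)
  have e1 : (H27.SLV F L).comap (Φ : (V ≃ₗ[F] V) →* _) = H27.SLV F V := by
    ext g
    rw [Subgroup.mem_comap, H27.mem_SLV, H27.mem_SLV, ← LinearMap.det_conj (g : V →ₗ[F] V) e']
    rfl
  have e2 : (H98.GamK L : Subgroup (L ≃ₗ[F] L)).comap (Φ : (V ≃ₗ[F] V) →* _) = H98.GamK L := by
    ext g
    refine exists_congr fun σ => ⟨fun h k x => e.injective ?_, fun h k x => ?_⟩
    · have := h k (e x)
      change Φ g _ = _ • Φ g _ at this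
      rwa [hΦ, hΦ, ← map_smul e, e.symm_apply_apply, e.symm_apply_apply, ← map_smul e] at this
    · change Φ g _ = _ • Φ g _
      rw [hΦ, hΦ, map_smul e.symm, h, map_smul]
  rwa [Subgroup.comap_inf, e1, e2] at h

theorem main_mat {ι : Type} [Fintype ι] [DecidableEq ι] {r : ℕ} (hr : r.Prime)
    (h11 : 11 ≤ Fintype.card ι) {K : Subalgebra F (Matrix ι ι F)} (hK : IsFieldSubalgebra r K) :
    IsMaximalIn (specialLinear ι F) (subalgebraNormalizer K ⊓ specialLinear ι F) := by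
  by_cases hlt : r < Fintype.card ι
  · exact (H98.isMaximalIn_sl_ext hr hlt hK).2
  haveI : Nonempty ι := Fintype.card_pos_iff.1 (by omega)
  have h1 := H98.finrank_KF_mul hK
  have h2 : finrank (H98.KF hK) (ι → F) = 1 := by
    generalize finrank (H98.KF hK) (ι → F) = d at h1
    obtain _ | _ | d := d
    · omega
    · rfl
    · nlinarith
  have h := H27.isMaximalIn_comap (H27.toLE ι F) (main_V (L := H98.KF hK) (V := ι → F)
    (by rwa [H98.KF.finrank_eq]) (by rw [H98.KF.finrank_eq]; omega) h2)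
  rwa [Subgroup.comap_inf, H98.comap_GamK, H27.comap_SLV] at h

end Cfsg.Agent.SNG
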