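import Cfsg.Agent.SNG.Defs

set_option autoImplicit false
set_option linter.unusedSectionVars false

namespace Cfsg.Agent.SNG

open MulAction Module
open scoped ComplexConjugate

open Classical in
theorem cs_cnt {X : Type*} [Fintype X] (P : X → Prop) :
    (Nat.card {y // P y} : ℝ) = ∑ y, if P y then 1 else 0 := by
  rw [Nat.card_eq_fintype_card, Fintype.card_subtype, Finset.sum_boole]

theorem cs {G X : Type*} [Group G] [Fintype G] [MulAction G X] [Finite X] (Δ : X → X → Prop)
    (inv : ∀ (g : G) x y, Δ x y → Δ (g • x) (g • y)) (k : ℕ) (hk : ∀ x, Nat.card {y // Δ x y} = k)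
    [Nonempty X] (c : G) :
    ((Nat.card {u // Δ u (c • u)} : ℝ) - k) ^ 2 * Nat.card G ≤
      Nat.card X * k * ((∑ g : G, (Nat.card (fixedBy X (g * c * g⁻¹ * c⁻¹)) : ℝ)) - Nat.card G) := by
  classical
  have := Fintype.ofFinite X
  obtain ⟨I, hI⟩ : ∃ I : X × X → ℝ, I = fun p => if Δ p.1 p.2 then 1 else 0 := ⟨_, rfl⟩
  obtain ⟨A, hA⟩ : ∃ A : X × X → ℝ,
    A = fun p => ∑ h : G, if (h * c * h⁻¹) • p.1 = p.2 then 1 else 0 := ⟨_, rfl⟩
  have hN : (0 : ℝ) < Nat.card G := Nat.cast_pos.2 Nat.card_pos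
  have hm : (0 : ℝ) < Nat.card X := Nat.cast_pos.2 Nat.card_pos
  have cG : ∀ r : ℝ, ∑ _h : G, r = Nat.card G * r := fun r => by
    rw [Finset.sum_const, Finset.card_univ, nsmul_eq_mul, Nat.card_eq_fintype_card]
  have cX : ∀ r : ℝ, ∑ _h : X, r = Nat.card X * r := fun r => by
    rw [Finset.sum_const, Finset.card_univ, nsmul_eq_mul, Nat.card_eq_fintype_card]
  have h1 : ∑ p, I p = Nat.card X * k := by
    rw [Fintype.sum_prod_type, ← cX]
    exact Finset.sum_congr rfl fun u _ => by rw [← hk u, cs_cnt, hI]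
  have h2 : ∑ p, I p ^ 2 = Nat.card X * k := by
    rw [← h1]
    exact Finset.sum_congr rfl fun p _ => by simp only [hI]; split_ifs <;> simp
  have key : ∀ F : X × X → ℝ, ∑ p, F p * A p = ∑ h : G, ∑ u, F (u, (h * c * h⁻¹) • u) := fun F => by
    simp only [hA, Finset.mul_sum]
    rw [Finset.sum_comm]
    refine Finset.sum_congr rfl fun h _ => ?_
    rw [Fintype.sum_prod_type]
    exact Finset.sum_congr rfl fun u _ => by simp
  have h3 : ∑ p, I p * A p = Nat.card G * Nat.card {u // Δ u (c • u)} := by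
    rw [key, ← cG]
    refine Finset.sum_congr rfl fun h _ => ?_
    rw [cs_cnt, ← Equiv.sum_comp (toPerm h)]
    refine Finset.sum_congr rfl fun u _ => ?_
    simp only [hI, toPerm_apply, mul_smul, inv_smul_smul]
    exact if_congr ⟨fun e => by simpa using inv h⁻¹ _ _ e, inv h _ _⟩ rfl rfl
  have h4 : ∑ p, A p = Nat.card G * Nat.card X := by
    simpa only [one_mul, cX, cG, mul_one] using key fun _ => 1
  have h5 : ∑ p, A p * A p =
      Nat.card G * ∑ g : G, (Nat.card (fixedBy X (g * c * g⁻¹ * c⁻¹)) : ℝ) := by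
    rw [key, ← cG]
    refine Finset.sum_congr rfl fun h _ => ?_
    simp only [hA]
    rw [Finset.sum_comm, ← Equiv.sum_comp (Equiv.mulLeft h)]
    refine Finset.sum_congr rfl fun g _ => ?_
    rw [show (Nat.card (fixedBy X (g * c * g⁻¹ * c⁻¹)) : ℝ) = _ from cs_cnt _,
      ← Equiv.sum_comp (toPerm (h * c⁻¹))]
    refine Finset.sum_congr rfl fun u _ => if_congr ?_ rfl rfl
    simp only [Equiv.coe_mulLeft, toPerm_apply, mul_smul, inv_smul_smul, mul_inv_rev, smul_inv_smul,
      smul_left_cancel_iff, mem_fixedBy]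
  have h6 := Finset.sum_mul_sq_le_sq_mul_sq Finset.univ I fun p => A p - Nat.card G / Nat.card X
  simp only [mul_sub, sub_sq, Finset.sum_sub_distrib, Finset.sum_add_distrib, ← Finset.sum_mul,
    ← Finset.mul_sum, h1, h2, h3, h4, sq (A _), h5, Finset.sum_const, Finset.card_univ,
    ← Nat.card_eq_fintype_card, Nat.card_prod, nsmul_eq_mul, Nat.cast_mul] at h6
  refine le_of_mul_le_mul_left (le_of_eq_of_le ?_ (h6.trans_eq ?_)) hN
  all_goals field_simp; ring

end Cfsg.Agent.SNG
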