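import Cfsg.Agent.SNG.Defs

/-! SNG: integer vectors at mutual squared distance two. -/

set_option autoImplicit false
set_option linter.unusedSectionVars false

namespace Cfsg.Agent.SNG

open MulAction Module
open scoped ComplexConjugate

theorem root_pos {ι : Type*} (S : Finset ι) (r : ι → ℤ) (d : ι → ℕ) (hd : ∀ i ∈ S, 0 < d i)
    (h2 : ∑ i ∈ S, r i ^ 2 = 2) (hr : ∑ i ∈ S, (d i : ℤ) * r i = 0) : ∃ α ∈ S, 0 < r α := by
  by_contra h
  push Not at h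
  have h1 := (Finset.sum_eq_zero_iff_of_nonpos fun i hi =>
    mul_nonpos_of_nonneg_of_nonpos (Int.natCast_nonneg (d i)) (h i hi)).1 hr
  have h3 : ∑ i ∈ S, r i ^ 2 = 0 := Finset.sum_eq_zero fun i hi => by
    have := hd i hi
    rw [(mul_eq_zero.1 (h1 i hi)).resolve_left (by omega)]; rfl
  omega

theorem root_two {ι : Type*} [DecidableEq ι] (S : Finset ι) (r : ι → ℤ) (d : ι → ℕ)
    (hd : ∀ i ∈ S, 0 < d i) (h2 : ∑ i ∈ S, r i ^ 2 = 2) (hr : ∑ i ∈ S, (d i : ℤ) * r i = 0) :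
    ∃ α β, α ∈ S ∧ β ∈ S ∧ α ≠ β ∧
      ∀ i ∈ S, r i = (if i = α then 1 else 0) - (if i = β then 1 else 0) := by
  obtain ⟨α, hα, h3⟩ := root_pos S r d hd h2 hr
  obtain ⟨β, hβ, h4⟩ := root_pos S (fun i => -r i) d hd (by simpa using h2) (by simpa using hr)
  have h4' : r β < 0 := by simpa using h4
  have hne : α ≠ β := by rintro rfl; omega
  have hβ' : β ∈ S.erase α := Finset.mem_erase.2 ⟨hne.symm, hβ⟩
  rw [← Finset.add_sum_erase S _ hα, ← Finset.add_sum_erase _ _ hβ'] at h2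
  have h5 : 0 ≤ ∑ i ∈ (S.erase α).erase β, r i ^ 2 := Finset.sum_nonneg fun i _ => sq_nonneg _
  have h6 : 1 ≤ r α ^ 2 := by nlinarith
  have h7 : 1 ≤ r β ^ 2 := by nlinarith
  have h8 : r α = 1 := by nlinarith
  have h9 : r β = -1 := by nlinarith
  have h10 := (Finset.sum_eq_zero_iff_of_nonneg fun i (_ : i ∈ (S.erase α).erase β) =>
    sq_nonneg (r i)).1 (by omega)
  refine ⟨α, β, hα, hβ, hne, fun i hi => ?_⟩
  by_cases e1 : i = α
  · rw [if_pos e1, if_neg (e1 ▸ hne), e1, h8]; rfl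
  by_cases e2 : i = β
  · rw [if_neg e1, if_pos e2, e2, h9]; rfl
  rw [if_neg e1, if_neg e2, pow_eq_zero_iff two_ne_zero |>.1
    (h10 i (Finset.mem_erase.2 ⟨e2, Finset.mem_erase.2 ⟨e1, hi⟩⟩))]
  rfl

theorem root_share {ι : Type*} [DecidableEq ι] {S : Finset ι} {α β α' β' γ η : ι} (h1 : α ∈ S)
    (h2 : β' ∈ S) (h3 : γ ∈ S) (e1 : α ≠ β) (e2 : α' ≠ β') (e3 : γ ≠ η)
    (h : ∀ i ∈ S, ((if i = α then 1 else 0) - (if i = β then 1 else 0) : ℤ) -
      ((if i = α' then 1 else 0) - (if i = β' then 1 else 0)) =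
      (if i = γ then 1 else 0) - (if i = η then 1 else 0)) :
    (α = α' ∧ β ≠ β') ∨ (β = β' ∧ α ≠ α') := by
  by_cases a1 : α = α'
  · refine Or.inl ⟨a1, ?_⟩
    rintro rfl
    subst a1
    have := h γ h3
    rw [sub_self, if_pos rfl, if_neg e3] at this
    omega
  · refine Or.inr ⟨?_, a1⟩
    by_contra a2
    have h4 := h α h1
    have h5 := h β' h2
    rw [if_pos rfl, if_neg e1, if_neg a1] at h4
    rw [if_pos rfl, if_neg (Ne.symm a2), if_neg e2.symm] at h5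
    have h6 : α = γ := by
      by_contra h6
      rw [if_neg h6] at h4
      split_ifs at h4 <;> omega
    have h7 : β' = γ := by
      by_contra h7
      rw [if_neg h7] at h5
      split_ifs at h5 <;> omega
    rw [if_pos (h6.trans h7.symm), if_pos h6] at h4
    split_ifs at h4 <;> omega

theorem root_fin {ι Λ : Type*} [DecidableEq ι] (S : Finset ι) (a : Λ → ι → ℤ) (L : Finset Λ)
    (l0 : Λ) (ε : ℤ) (γ : ι) (hγ : γ ∈ S) (χ : Λ → ι)
    (h1 : ∀ l ∈ L, l ≠ l0 → χ l ∈ S ∧ χ l ≠ γ ∧ ∀ i ∈ S,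
      a l i - a l0 i = (if i = χ l then ε else 0) - (if i = γ then ε else 0))
    (h2 : ∀ l ∈ L, l ≠ l0 → ∀ m ∈ L, m ≠ l0 → l ≠ m → χ l ≠ χ m) :
    ∃ (χ : Λ → ι) (b : ι → ℤ), (∀ l ∈ L, χ l ∈ S) ∧ Set.InjOn χ L ∧
      ∀ l ∈ L, ∀ i ∈ S, a l i = b i + if i = χ l then ε else 0 := by
  classical
  refine ⟨fun l => if l = l0 then γ else χ l, fun i => a l0 i - if i = γ then ε else 0,
    fun l hl => ?_, fun l hl m hm e => ?_, fun l hl i hi => ?_⟩
  · by_cases e : l = l0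
    · simp only [if_pos e, hγ]
    · simp only [if_neg e, (h1 l hl e).1]
  · by_contra hne
    by_cases e1 : l = l0 <;> by_cases e2 : m = l0
    · exact hne (e1.trans e2.symm)
    · simp only [if_pos e1, if_neg e2] at e
      exact (h1 m hm e2).2.1 e.symm
    · simp only [if_neg e1, if_pos e2] at e
      exact (h1 l hl e1).2.1 e
    · simp only [if_neg e1, if_neg e2] at e
      exact h2 l hl e1 m hm e2 hne e
  · by_cases e : l = l0
    · simp only [if_pos e]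
      rw [e, sub_add_cancel]
    · simp only [if_neg e]
      have := (h1 l hl e).2.2 i hi
      omega

theorem root {ι Λ : Type*} [DecidableEq ι] (S : Finset ι) (a : Λ → ι → ℤ) (d : ι → ℕ)
    (hd : ∀ i ∈ S, 0 < d i) (L : Finset Λ) (hL : 2 ≤ L.card)
    (h2 : ∀ l ∈ L, ∀ m ∈ L, l ≠ m → ∑ i ∈ S, (a l i - a m i) ^ 2 = 2)
    (hr : ∀ l ∈ L, ∀ m ∈ L, ∑ i ∈ S, (d i : ℤ) * (a l i - a m i) = 0) :
    ∃ (ε : ℤ) (χ : Λ → ι) (b : ι → ℤ), (ε = 1 ∨ ε = -1) ∧ (∀ l ∈ L, χ l ∈ S) ∧ Set.InjOn χ L ∧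
      ∀ l ∈ L, ∀ i ∈ S, a l i = b i + if i = χ l then ε else 0 := by
  obtain ⟨l0, hl0, l1, hl1, hne⟩ := Finset.one_lt_card.1 hL
  have H := fun l hl m hm e => root_two S (fun i => a l i - a m i) d hd (h2 l hl m hm e) (hr l hl m hm)
  have : ∀ l, ∃ α β : ι, l ∈ L → l ≠ l0 → α ∈ S ∧ β ∈ S ∧ α ≠ β ∧
      ∀ i ∈ S, a l i - a l0 i = (if i = α then 1 else 0) - (if i = β then 1 else 0) := fun l => by
    by_cases h : l ∈ L ∧ l ≠ l0
    · obtain ⟨α, β, h'⟩ := H l h.1 l0 hl0 h.2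
      exact ⟨α, β, fun _ _ => h'⟩
    · obtain ⟨α, β, -⟩ := H l0 hl0 l1 hl1 hne
      exact ⟨α, β, fun h1 h3 => (h ⟨h1, h3⟩).elim⟩
  choose α β hαβ using this
  have sh : ∀ l ∈ L, l ≠ l0 → ∀ m ∈ L, m ≠ l0 → l ≠ m →
      (α l = α m ∧ β l ≠ β m) ∨ (β l = β m ∧ α l ≠ α m) := fun l hl e m hm e' e'' => by
    obtain ⟨γ, η, h3, -, h4, h5⟩ := H l hl m hm e''
    obtain ⟨a1, -, a3, a4⟩ := hαβ l hl e
    obtain ⟨-, b2, b3, b4⟩ := hαβ m hm e'
    refine root_share a1 b2 h3 a3 b3 h4 fun i hi => ?_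
    rw [← a4 i hi, ← b4 i hi, ← h5 i hi]
    ring
  by_cases hc : ∀ l ∈ L, l ≠ l0 → ∀ m ∈ L, m ≠ l0 → β l = β m
  · obtain ⟨χ, b, h⟩ := root_fin S a L l0 1 (β l1) (hαβ l1 hl1 hne.symm).2.1 α
      (fun l hl e => by
        rw [← hc l hl e l1 hl1 hne.symm]
        exact ⟨(hαβ l hl e).1, (hαβ l hl e).2.2⟩)
      fun l hl e m hm e' e'' => ((sh l hl e m hm e' e'').resolve_left
        fun h => h.2 (hc l hl e m hm e')).2
    exact ⟨1, χ, b, Or.inl rfl, h⟩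
  · push Not at hc
    obtain ⟨m1, hm1, e1, m2, hm2, e2, hβ⟩ := hc
    have h12 : α m1 = α m2 := ((sh m1 hm1 e1 m2 hm2 e2 fun e => hβ (by rw [e])).resolve_right
      fun h => hβ h.1).1
    have hα : ∀ l ∈ L, l ≠ l0 → α l = α m1 := fun l hl e => by
      by_contra h
      have h3 := ((sh l hl e m1 hm1 e1 fun e => h (by rw [e])).resolve_left fun h' => h h'.1).1
      rw [h12] at h
      have h4 := ((sh l hl e m2 hm2 e2 fun e => h (by rw [e])).resolve_left fun h' => h h'.1).1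
      exact hβ (h3.symm.trans h4)
    obtain ⟨χ, b, h⟩ := root_fin S a L l0 (-1) (α m1) (hαβ m1 hm1 e1).1 β
      (fun l hl e => by
        rw [← hα l hl e]
        refine ⟨(hαβ l hl e).2.1, (hαβ l hl e).2.2.1.symm, fun i hi => ?_⟩
        rw [(hαβ l hl e).2.2.2 i hi]
        split_ifs <;> rfl)
      fun l hl e m hm e' e'' => ((sh l hl e m hm e' e'').resolve_right
        fun h => h.2 ((hα l hl e).trans (hα m hm e').symm)).2
    exact ⟨-1, χ, b, Or.inr rfl, h⟩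

end Cfsg.Agent.SNG
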