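import Cfsg.Agent.SNG.Exc1
import Cfsg.Agent.SNG.Root

set_option autoImplicit false
set_option linter.unusedSectionVars false

namespace Cfsg.Agent.SNG

open MulAction Module
open scoped ComplexConjugate

variable {T : Type*} [Group T] [Fintype T] {W : Subgroup (MulAut T)} {ι : Type*} {S : Finset ι}
  {f : ι → T → ℂ}

theorem exc2_comp_mul (l : T →* ℂˣ) (w w' : MulAut T) :
    l.comp (w * w').toMonoidHom = (l.comp w.toMonoidHom).comp w'.toMonoidHom := by
  ext t; rfl

theorem exc2_comp_one (l : T →* ℂˣ) : l.comp (1 : MulAut T).toMonoidHom = l := by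
  ext t; rfl

theorem exc2_ne_one {l : T →* ℂˣ} (hl : l ≠ 1) (w : MulAut T) : l.comp w.toMonoidHom ≠ 1 := by
  intro h
  apply hl
  rw [← exc2_comp_one l, ← mul_inv_cancel w, exc2_comp_mul, h]
  rfl

/-- the orbit relation on linear characters -/
def exc2_rel (W : Subgroup (MulAut T)) : Setoid (T →* ℂˣ) where
  r l m := ∃ w ∈ W, l.comp w.toMonoidHom = m
  iseqv :=
    ⟨fun l => ⟨1, W.one_mem, exc2_comp_one l⟩,
      fun {l m} ⟨w, hw, e⟩ => ⟨w⁻¹, W.inv_mem hw, by
        rw [← e, ← exc2_comp_mul, mul_inv_cancel, exc2_comp_one]⟩,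
      fun {l m k} ⟨w, hw, e⟩ ⟨w', hw', e'⟩ => ⟨w * w', W.mul_mem hw hw', by
        rw [exc2_comp_mul, e, e']⟩⟩

/-- a transversal of the orbits on the nontrivial linear characters -/
theorem exc2_trans (h : Exc W S f) [Fintype (T →* ℂˣ)] :
    ∃ L : Finset (T →* ℂˣ), (∀ l ∈ L, l ≠ 1) ∧
      (∀ l ∈ L, ∀ m ∈ L, l ≠ m → ∀ w ∈ W, l.comp w.toMonoidHom ≠ m) ∧
      (∀ m : T →* ℂˣ, m ≠ 1 → ∃ l ∈ L, ∃ w ∈ W, l.comp w.toMonoidHom = m) ∧
      ∀ g : (T →* ℂˣ) → ℂ, (∀ l, ∀ w ∈ W, g (l.comp w.toMonoidHom) = g l) →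
        ∑ l, g l = g 1 + Nat.card W * ∑ l ∈ L, g l := by
  classical
  let s := exc2_rel W
  let L : Finset (T →* ℂˣ) :=
    (Finset.univ.filter (· ≠ 1)).image fun l => (Quotient.mk s l).out
  have hout : ∀ l, ∃ w ∈ W, ((Quotient.mk s l).out).comp w.toMonoidHom = l := fun l =>
    Quotient.mk_out (s := s) l
  have h1 : ∀ l ∈ L, l ≠ 1 := by
    intro l hl e
    obtain ⟨m, hm, rfl⟩ := Finset.mem_image.1 hl
    obtain ⟨w, -, hw⟩ := hout m
    rw [e] at hw
    exact (Finset.mem_filter.1 hm).2 (hw.symm.trans rfl)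
  have h2 : ∀ l ∈ L, ∀ m ∈ L, l ≠ m → ∀ w ∈ W, l.comp w.toMonoidHom ≠ m := by
    intro l hl m hm hne w hw e
    obtain ⟨l', -, rfl⟩ := Finset.mem_image.1 hl
    obtain ⟨m', -, rfl⟩ := Finset.mem_image.1 hm
    apply hne
    have : Quotient.mk s (Quotient.mk s l').out = Quotient.mk s (Quotient.mk s m').out :=
      Quotient.sound ⟨w, hw, e⟩
    rw [Quotient.out_eq, Quotient.out_eq] at this
    rw [this]
  have h3 : ∀ m : T →* ℂˣ, m ≠ 1 → ∃ l ∈ L, ∃ w ∈ W, l.comp w.toMonoidHom = m := fun m hm =>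
    ⟨_, Finset.mem_image.2 ⟨m, Finset.mem_filter.2 ⟨Finset.mem_univ _, hm⟩, rfl⟩, hout m⟩
  refine ⟨L, h1, h2, h3, fun g hg => ?_⟩
  haveI : Finite (MulAut T) := Finite.of_injective (fun w : MulAut T => (w : T → T))
    DFunLike.coe_injective
  haveI : Fintype W := Fintype.ofFinite _
  rw [← Finset.add_sum_erase _ _ (Finset.mem_univ (1 : T →* ℂˣ))]
  congr 1
  have e1 : (Nat.card W : ℂ) * ∑ l ∈ L, g l =
      ∑ x ∈ L ×ˢ (Finset.univ : Finset W), g (x.1.comp (x.2 : MulAut T).toMonoidHom) := by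
    rw [Finset.sum_product, Finset.mul_sum]
    refine Finset.sum_congr rfl fun l _ => ?_
    rw [Finset.sum_congr rfl fun (w : W) _ => hg l w w.2, Finset.sum_const, Finset.card_univ,
      Nat.card_eq_fintype_card, nsmul_eq_mul]
  rw [e1]
  symm
  refine Finset.sum_bij (fun x _ => x.1.comp (x.2 : MulAut T).toMonoidHom) ?_ ?_ ?_ ?_
  · intro x hx
    exact Finset.mem_erase.2 ⟨exc2_ne_one (h1 _ (Finset.mem_product.1 hx).1) _, Finset.mem_univ _⟩
  · rintro ⟨l, w⟩ hx ⟨m, w'⟩ hy e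
    have hl := (Finset.mem_product.1 hx).1
    have hm := (Finset.mem_product.1 hy).1
    have e' : l.comp ((w : MulAut T) * (w' : MulAut T)⁻¹).toMonoidHom = m := by
      rw [exc2_comp_mul]
      dsimp only at e
      rw [e, ← exc2_comp_mul, mul_inv_cancel, exc2_comp_one]
    have hw := W.mul_mem w.2 (W.inv_mem w'.2)
    have hlm : l = m := by
      by_contra hne
      exact h2 l hl m hm hne _ hw e'
    subst hlm
    have := h.free_hom hw (h1 l hl) e'
    rw [Prod.mk.injEq]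
    exact ⟨rfl, Subtype.ext (mul_inv_eq_one.1 this)⟩
  · intro m hm
    obtain ⟨l, hl, w, hw, e⟩ := h3 m (Finset.mem_erase.1 hm).1
    exact ⟨(l, ⟨w, hw⟩), Finset.mem_product.2 ⟨hl, Finset.mem_univ _⟩, e⟩
  · intro x _; rfl

theorem exc2_orth (h : Exc W S f) [Fintype (T →* ℂˣ)] {t : T} (ht : t ≠ 1) :
    ∑ l : T →* ℂˣ, (l t : ℂ) = 0 := by
  classical
  have e := h.expand (fun u => if u = 1 then (Nat.card T : ℂ) else 0) t
  have hv : (Nat.card T : ℂ) ≠ 0 := Nat.cast_ne_zero.2 Nat.card_pos.ne'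
  have e2 : ∀ l : T →* ℂˣ, mlt (fun u => if u = 1 then (Nat.card T : ℂ) else 0) l = 1 := by
    intro l
    unfold mlt classInner
    rw [Finset.sum_eq_single 1]
    · simp [hv]
    · intro b _ hb; simp [hb]
    · intro hb; exact absurd (Finset.mem_univ _) hb
  simp only [e2, one_mul, if_neg ht] at e
  exact e.symm

theorem Exc.nonflat (h : Exc W S f) (hv : Nat.card W * (Nat.card W + 3) + 1 ≤ Nat.card T) {i : ι}
    (hi : i ∈ S) (hf : ¬ ∀ t t' : T, t ≠ 1 → t' ≠ 1 → f i t = f i t') :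
    ∃ E ⊆ S, i ∈ E ∧ E.card * Nat.card W + 1 = Nat.card T ∧
      (∀ c : ι → ℂ, (∀ t : T, t ≠ 1 → ∑ j ∈ S, c j * f j t = 0) → ∀ j ∈ E, c j = c i) ∧
      ∀ D : ℕ, f i 1 = D → D + Nat.card W + 1 < Nat.card T →
        D = Nat.card W ∧ ∑ t, f i t = 0 ∧
          ∑ t, f i t * conj (f i t) = Nat.card W * Nat.card T := by
  classical
  haveI : Finite (T →* ℂˣ) := Nat.finite_of_card_ne_zero (by
    rw [h.card_hom]; exact Nat.card_pos.ne')
  haveI : Fintype (T →* ℂˣ) := Fintype.ofFinite _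
  haveI : Finite (MulAut T) := Finite.of_injective (fun w : MulAut T => (w : T → T))
    DFunLike.coe_injective
  obtain ⟨L, h1, h2, h3, h4⟩ := exc2_trans h
  set e := Nat.card W with he
  have e0 : 0 < e := Nat.card_pos
  have hLv : L.card * e + 1 = Nat.card T := by
    have := h4 (fun _ => 1) (fun _ _ _ => rfl)
    simp only [Finset.sum_const, Finset.card_univ, nsmul_eq_mul, mul_one] at this
    rw [← Nat.card_eq_fintype_card, h.card_hom] at this
    have h' : ((L.card * e + 1 : ℕ) : ℂ) = (Nat.card T : ℕ) := by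
      rw [this]; push_cast; ring
    exact_mod_cast h'
  have hL3 : e + 3 ≤ L.card := by
    have : e * (e + 3) ≤ e * L.card := by rw [mul_comm e L.card]; omega
    exact Nat.le_of_mul_le_mul_left this e0
  -- natural multiplicities
  have hn : ∀ j l, ∃ n : ℕ, j ∈ S → mlt (f j) l = n := fun j l => by
    by_cases hj : j ∈ S
    · obtain ⟨n, hn⟩ := h.nat hj l
      exact ⟨n, fun _ => hn⟩
    · exact ⟨0, fun h' => absurd h' hj⟩
  choose n hn using hn
  let d : ι → ℕ := fun j => n j 1 + e * ∑ l ∈ L, n j l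
  have hd : ∀ j ∈ S, f j 1 = d j := by
    intro j hj
    rw [h.expand (f j) 1]
    simp only [map_one, Units.val_one, mul_one]
    rw [h4 _ fun l w hw => h.mlt_inv hj hw l, hn j 1 hj, Finset.sum_congr rfl fun l _ => hn j l hj]
    simp only [d]
    push_cast
    ring
  have hd0 : ∀ j ∈ S, 0 < d j := fun j hj => Nat.pos_of_ne_zero fun h0 => h.pos j hj (by
    rw [hd j hj, h0, Nat.cast_zero])
  obtain ⟨ε, χ, b, hε, hχ, hinj, hab⟩ := root S (fun l j => (n j l : ℤ)) d hd0 L (by omega)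
    (fun l hl m hm hne => by
      have := h.norm2 (h1 l hl) (h1 m hm) (h2 l hl m hm hne)
      rw [Finset.sum_congr rfl fun j hj => by rw [hn j l hj, hn j m hj]] at this
      exact_mod_cast this)
    (fun l hl m hm => by
      have := Exc.rel (S := S) (f := f) (fun j => f j 1) (fun t ht => h.deg_rel ht) l m
      rw [Finset.sum_congr rfl fun j hj => by rw [hn j l hj, hn j m hj, hd j hj]] at this
      exact_mod_cast this)
  have habC : ∀ l ∈ L, ∀ j ∈ S, mlt (f j) l = (b j : ℂ) + if j = χ l then (ε : ℂ) else 0 := by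
    intro l hl j hj
    have := hab l hl j hj
    rw [hn j l hj]
    have h' : ((n j l : ℤ) : ℂ) = ((b j + if j = χ l then ε else 0 : ℤ) : ℂ) := by rw [← this]
    rw [Int.cast_natCast] at h'
    rw [h']
    split_ifs <;> simp
  -- `i` is exceptional
  have hi0 : ∃ l0 ∈ L, χ l0 = i := by
    by_contra hcon
    push Not at hcon
    apply hf
    have key : ∀ t : T, t ≠ 1 → f i t = mlt (f i) 1 - b i := by
      intro t ht
      have hm : ∀ m : T →* ℂˣ, m ≠ 1 → mlt (f i) m = b i := by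
        intro m hm
        obtain ⟨l, hl, w, hw, rfl⟩ := h3 m hm
        rw [h.mlt_inv hi hw, habC l hl i hi, if_neg (hcon l hl).symm, add_zero]
      have o := exc2_orth h ht
      rw [← Finset.add_sum_erase _ _ (Finset.mem_univ (1 : T →* ℂˣ))] at o
      rw [h.expand (f i) t, ← Finset.add_sum_erase _ _ (Finset.mem_univ (1 : T →* ℂˣ)),
        Finset.sum_congr rfl fun m hm' => by rw [hm m (Finset.mem_erase.1 hm').1],
        ← Finset.mul_sum]
      simp only [MonoidHom.one_apply, Units.val_one] at o ⊢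
      linear_combination (b i : ℂ) * o
    intro t t' ht ht'
    rw [key t ht, key t' ht']
  obtain ⟨l0, hl0, rfl⟩ := hi0
  have hεC : (ε : ℂ) ≠ 0 := by rcases hε with rfl | rfl <;> simp
  have hc : ∀ c : ι → ℂ, (∀ t : T, t ≠ 1 → ∑ j ∈ S, c j * f j t = 0) →
      ∀ j ∈ L.image χ, c j = c (χ l0) := by
    intro c hc j hj
    obtain ⟨l, hl, rfl⟩ := Finset.mem_image.1 hj
    have := Exc.rel c hc l l0
    rw [Finset.sum_congr rfl fun j hj => by rw [habC l hl j hj, habC l0 hl0 j hj]] at this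
    simp only [add_sub_add_left_eq_sub, mul_sub, mul_ite, mul_zero, Finset.sum_sub_distrib,
      Finset.sum_ite_eq', if_pos (hχ l hl), if_pos (hχ l0 hl0)] at this
    exact mul_right_cancel₀ hεC (sub_eq_zero.1 this)
  refine ⟨L.image χ, fun j hj => ?_, Finset.mem_image_of_mem _ hl0, ?_, hc, fun D hD hlt => ?_⟩
  · obtain ⟨l, hl, rfl⟩ := Finset.mem_image.1 hj
    exact hχ l hl
  · rw [Finset.card_image_of_injOn hinj, hLv]
  -- the sum over `L` for an exceptional character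
  have hsum : ∀ l ∈ L, ∑ m ∈ L, (n (χ l) m : ℤ) = L.card * b (χ l) + ε := by
    intro l hl
    rw [Finset.sum_congr rfl fun m hm => hab m hm _ (hχ l hl), Finset.sum_add_distrib,
      Finset.sum_const, nsmul_eq_mul, Finset.sum_eq_single_of_mem l hl, if_pos rfl]
    intro m hm hne
    exact if_neg fun e' => hne (hinj hm hl e'.symm)
  have hDl : ∀ l ∈ L, (D : ℤ) = n (χ l) 1 + e * (L.card * b (χ l) + ε) := by
    intro l hl
    have := hc (fun j => f j 1) (fun t ht => h.deg_rel ht) _ (Finset.mem_image_of_mem _ hl)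
    rw [hD, hd _ (hχ l hl)] at this
    have h' : d (χ l) = D := by exact_mod_cast this
    rw [← hsum l hl, ← h']
    simp only [d]
    push_cast
    ring
  have hDlt : (D : ℤ) + e < L.card * e := by
    have : D + e < L.card * e := by omega
    exact_mod_cast this
  have e0' : (0 : ℤ) < e := by exact_mod_cast e0
  have hε1 : ε = 1 := by
    rcases hε with h' | h'
    · exact h'
    exfalso
    have a1 := hab l0 hl0 _ (hχ l0 hl0)
    have a2 := hDl l0 hl0
    simp only [if_true, h'] at a1 a2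
    have a3 : 1 ≤ b (χ l0) := by omega
    have a4 : (0 : ℤ) ≤ n (χ l0) 1 := Int.natCast_nonneg _
    have a5 : (0 : ℤ) ≤ L.card := Int.natCast_nonneg _
    nlinarith [mul_nonneg (mul_nonneg e0'.le a5) (sub_nonneg.2 a3)]
  subst hε1
  have hb : ∀ l ∈ L, b (χ l) = 0 := by
    intro l hl
    obtain ⟨m, hm, hml⟩ : ∃ m ∈ L, m ≠ l := Finset.exists_mem_ne (by omega) l
    have a1 := hab m hm _ (hχ l hl)
    rw [if_neg fun e' => hml (hinj hm hl e'.symm)] at a1
    have a2 := hDl l hl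
    have a4 : (0 : ℤ) ≤ n (χ l) 1 := Int.natCast_nonneg _
    have a5 : (0 : ℤ) ≤ L.card := Int.natCast_nonneg _
    by_contra hne
    have a3 : 1 ≤ b (χ l) := by omega
    nlinarith [mul_nonneg (mul_nonneg e0'.le a5) (sub_nonneg.2 a3)]
  have hn1 : ∀ l ∈ L, (n (χ l) 1 : ℤ) = D - e := by
    intro l hl
    have := hDl l hl
    rw [hb l hl] at this
    linarith
  have hDe : (D : ℤ) = e := by
    have a := h.norm1 (h1 l0 hl0)
    rw [Finset.sum_congr rfl fun j hj => by rw [hn j l0 hj, hn j 1 hj]] at a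
    have a' : ∑ j ∈ S, ((n j l0 : ℤ) - n j 1) ^ 2 = e + 1 := by exact_mod_cast a
    have b1 : ∑ j ∈ (L.erase l0).image χ, ((n j l0 : ℤ) - n j 1) ^ 2 ≤
        ∑ j ∈ S, ((n j l0 : ℤ) - n j 1) ^ 2 := by
      refine Finset.sum_le_sum_of_subset_of_nonneg (fun j hj => ?_) fun _ _ _ => sq_nonneg _
      obtain ⟨l, hl, rfl⟩ := Finset.mem_image.1 hj
      exact hχ l (Finset.mem_of_mem_erase hl)
    have b2 : ∑ j ∈ (L.erase l0).image χ, ((n j l0 : ℤ) - n j 1) ^ 2 =
        ((L.card : ℤ) - 1) * ((D : ℤ) - e) ^ 2 := by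
      rw [Finset.sum_image fun x hx y hy e' =>
        hinj (Finset.mem_of_mem_erase hx) (Finset.mem_of_mem_erase hy) e']
      rw [Finset.sum_congr rfl (g := fun _ => ((D : ℤ) - e) ^ 2), Finset.sum_const,
        Finset.card_erase_of_mem hl0, nsmul_eq_mul, Nat.cast_sub (by omega), Nat.cast_one]
      intro l hl
      obtain ⟨hne, hl⟩ := Finset.mem_erase.1 hl
      have a1 := hab l0 hl0 _ (hχ l hl)
      rw [if_neg fun e' => hne (hinj hl hl0 e'), hb l hl] at a1
      rw [a1, hn1 l hl]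
      ring
    rw [b2, a'] at b1
    have b3 : (e : ℤ) + 3 ≤ L.card := by exact_mod_cast hL3
    by_contra hne
    have b4 : (1 : ℤ) ≤ ((D : ℤ) - e) ^ 2 := by
      have : (0 : ℤ) < ((D : ℤ) - e) ^ 2 := sq_pos_of_ne_zero (sub_ne_zero.2 hne)
      omega
    nlinarith
  have hn0 : n (χ l0) 1 = 0 := by
    have := hn1 l0 hl0
    omega
  have hm1 : mlt (f (χ l0)) 1 = 0 := by rw [hn _ _ hi, hn0, Nat.cast_zero]
  have hvC : (Nat.card T : ℂ) ≠ 0 := Nat.cast_ne_zero.2 Nat.card_pos.ne'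
  refine ⟨by exact_mod_cast hDe, ?_, ?_⟩
  · have := hm1
    unfold mlt classInner at this
    simp only [MonoidHom.one_apply, Units.val_one, map_one, mul_one] at this
    exact (mul_eq_zero.1 this).resolve_left (inv_ne_zero hvC)
  · rw [h.parseval, h4 _ fun l w hw => by rw [h.mlt_inv hi hw l], hm1,
      Finset.sum_eq_single_of_mem l0 hl0, habC l0 hl0 _ hi, hb l0 hl0, if_pos rfl]
    · simp [mul_comm]
    · intro m hm hne
      rw [habC m hm _ hi, hb l0 hl0, if_neg fun e' => hne (hinj hm hl0 e'.symm)]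
      simp

end Cfsg.Agent.SNG
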