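import Cfsg.Agent.SNG.Col
import Cfsg.Agent.SNG.Exc2

/-! Non-flat characters are large; the bound for the fixed points of commutators. -/

set_option autoImplicit false
set_option linter.unusedSectionVars false

namespace Cfsg.Agent.SNG

open MulAction Module
open scoped ComplexConjugate

variable {G : Type*} [Group G] {T Z : Subgroup G} {e : ℕ}

namespace Flat

theorem ne_bot [Finite G] (he : 2 ≤ e) (hv : e * (e + 3) + 1 ≤ Nat.card T) : T ≠ ⊥ := by
  rintro rfl
  rw [Subgroup.card_bot] at hv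
  nlinarith

theorem flat_iff {χ : G → ℂ} : (∀ t t' : T, t ≠ 1 → t' ≠ 1 → χ t = χ t') ↔
    ∀ t ∈ T, ∀ t' ∈ T, t ≠ 1 → t' ≠ 1 → χ t = χ t' :=
  ⟨fun h t ht t' ht' a b => h ⟨t, ht⟩ ⟨t', ht'⟩ (fun e => a (congrArg Subtype.val e))
    fun e => b (congrArg Subtype.val e), fun h t t' a b => h t t.2 t' t'.2 (fun e => a (Subtype.ext e))
    fun e => b (Subtype.ext e)⟩

/-- small characters that are trivial on `Z` have no fixed vector of `T` -/
theorem sum_zero [Fintype G] [Fintype T] (h : CC T Z e) (he : 2 ≤ e)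
    (gen : ∀ N : Subgroup G, N.Normal → T ≤ N → Z ≤ N → N = ⊤)
    (hv : e * (e + 3) + 1 ≤ Nat.card T) {ψ : G → ℂ} (hψ : IsIrrCharacter G ψ) (h1 : ψ ≠ fun _ => 1)
    (hZ : ∀ z ∈ Z, ψ z = ψ 1) {D : ℕ} (hD : ψ 1 = D) (le : D ≤ e * e) : ∑ t : T, ψ t = 0 := by
  obtain ⟨W, S, cW, hS, ex, -⟩ := h.exc (ne_bot he hv) ⟨ψ, hψ⟩
  by_cases hf : ∀ t t' : T, t ≠ 1 → t' ≠ 1 → ψ t = ψ t'
  · rcases (ex.flat hS hf).2 with a | a
    · have := gen (H5.charKer (H5.isCharacter_of_isIrr hψ)) inferInstance (fun t ht => a ⟨t, ht⟩) hZ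
      exact absurd (H5.eq_one_of_forall_eq_degree hψ fun g =>
        (H5.mem_charKer _).1 (this ▸ Subgroup.mem_top g)) h1
    · have := a D hD
      nlinarith
  · obtain ⟨E, -, -, -, -, k⟩ := ex.nonflat (cW ▸ hv) hS hf
    exact (k D hD (by rw [cW]; nlinarith)).2.1

theorem card_fix {X : Type*} [MulAction G X] [Fintype X] [DecidableEq X] (g : G) :
    (Nat.card (fixedBy X g) : ℂ) = ∑ x : X, if g • x = x then 1 else 0 := by
  rw [Finset.sum_boole, Nat.card_eq_fintype_card, Fintype.card_subtype]; rfl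

/-- a nontrivial character whose kernel is transitive does not occur -/
theorem inner_zero [Fintype G] {X : Type*} [MulAction G X] [Finite X] {χ : G → ℂ}
    (hχ : IsIrrCharacter G χ) (h1 : χ ≠ fun _ => 1) {N : Subgroup G} (hN : ∀ n ∈ N, χ n = χ 1)
    (tr : ∀ x y : X, ∃ g ∈ N, g • x = y) :
    classInner (fun g => (Nat.card (fixedBy X g) : ℂ)) χ = 0 := by
  classical
  have := Fintype.ofFinite X
  have hc := H5.isCharacter_of_isIrr hχ
  have A : ∀ g : G, ∑ n : N, (Nat.card (fixedBy X (g * n)) : ℂ) =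
      ∑ n : N, (Nat.card (fixedBy X (n : G)) : ℂ) := fun g => by
    simp only [card_fix]
    rw [Finset.sum_comm, Finset.sum_comm (s := (Finset.univ : Finset N))]
    refine Finset.sum_congr rfl fun x _ => ?_
    obtain ⟨n0, hn0, e0⟩ := tr x (g⁻¹ • x)
    rw [← Equiv.sum_comp (Equiv.mulLeft (⟨n0, hn0⟩ : N))]
    refine Finset.sum_congr rfl fun n _ => if_congr ?_ rfl rfl
    change (g * (n0 * n)) • x = x ↔ _
    rw [mul_smul, smul_eq_iff_eq_inv_smul, ← e0, mul_smul, smul_left_cancel_iff]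
  have B : (Nat.card N : ℂ) * ∑ g, (Nat.card (fixedBy X g) : ℂ) * conj (χ g) = 0 := by
    calc _ = ∑ n : N, ∑ g : G, (Nat.card (fixedBy X (g * n)) : ℂ) * conj (χ g) := by
          rw [Nat.card_eq_fintype_card, ← nsmul_eq_mul, ← Finset.card_univ, ← Finset.sum_const]
          refine Finset.sum_congr rfl fun n _ => ?_
          rw [← Equiv.sum_comp (Equiv.mulRight (n : G))]
          exact Finset.sum_congr rfl fun g _ => by
            rw [Equiv.coe_mulRight, H5.apply_mul_of_apply_eq_degree' hc (hN n n.2)]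
      _ = (∑ n : N, (Nat.card (fixedBy X (n : G)) : ℂ)) * conj (∑ g, χ g) := by
          rw [Finset.sum_comm, map_sum, Finset.mul_sum]
          exact Finset.sum_congr rfl fun g _ => by rw [← Finset.sum_mul, A]
      _ = 0 := by rw [H5.sum_irr_eq_zero hχ h1, map_zero, mul_zero]
  rw [classInner, (mul_eq_zero.1 B).resolve_left H5.natCard_ne_zero, mul_zero]

theorem inner_one [Fintype G] {X : Type*} [MulAction G X] [Finite X] [Nonempty X]
    (tr : ∀ x y : X, ∃ g : G, g • x = y) :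
    classInner (fun g : G => (Nat.card (fixedBy X g) : ℂ)) (fun _ => 1) = 1 := by
  classical
  have := Fintype.ofFinite X
  have : Fintype (orbitRel.Quotient G X) := Fintype.ofFinite _
  have b := sum_card_fixedBy_eq_card_orbits_mul_card_group G X
  have : IsPretransitive G X := ⟨tr⟩
  have c : Fintype.card (orbitRel.Quotient G X) = 1 :=
    Fintype.card_eq_one_iff_nonempty_unique.2 ((pretransitive_iff_unique_quotient_of_nonempty G X).1 this)
  rw [H5.classInner_one_right]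
  simp only [Nat.card_eq_fintype_card]
  rw [← Nat.cast_sum, b, c, one_mul, inv_mul_cancel₀ (by exact_mod_cast Fintype.card_ne_zero)]

end Flat

open Flat

/-- a non-flat irreducible character is large -/
theorem CC.large [Finite G] (h : CC T Z e) (he : 2 ≤ e)
    (gen : ∀ N : Subgroup G, N.Normal → T ≤ N → Z ≤ N → N = ⊤)
    (hv : e * (e + 3) + 1 ≤ Nat.card T) {χ : G → ℂ} (hχ : IsIrrCharacter G χ)
    (hf : ¬ ∀ t ∈ T, ∀ t' ∈ T, t ≠ 1 → t' ≠ 1 → χ t = χ t') {D : ℕ} (hD : χ 1 = D) :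
    Nat.card T ≤ D + e + 1 := by
  classical
  by_contra lt
  have := Fintype.ofFinite G
  obtain ⟨W, S, cW, hS, ex, -⟩ := h.exc (ne_bot he hv) ⟨χ, hχ⟩
  obtain ⟨E, -, -, -, -, k⟩ := ex.nonflat (cW ▸ hv) hS (fun a => hf (flat_iff.1 a))
  obtain ⟨rfl, -, k2⟩ := k D hD (by rw [cW]; omega)
  have hc := H5.isCharacter_of_isIrr hχ
  have hρ := H5.isCharacter_mul hc (H5.isCharacter_conj hc)
  set ρ : G → ℂ := χ * fun g => conj (χ g) with eρ
  have ρ1 : ρ 1 = (e * e : ℕ) := by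
    rw [eρ, Pi.mul_apply, H5.conj_degree hc, hD, cW, Nat.cast_mul]
  have i1 : classInner ρ (fun _ => 1) = 1 := by
    rw [eρ, H5.classInner_mul_left]
    simpa using H5.classInner_irr_self hχ
  have s : ∑ t : T, ρ t = Nat.card T := by
    simp only [H5.classFunction_apply_eq_sum (H5.isClassFunction_of_isCharacter hρ)]
    rw [Finset.sum_comm, Finset.sum_eq_single ⟨_, H5.isIrrCharacter_one⟩]
    · simp [i1]
    · intro ψ _ h1
      by_cases h0 : classInner ρ ψ.1 = 0
      · simp [h0]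
      obtain ⟨D', hD'⟩ := H5.exists_nat_degree (H5.isCharacter_of_isIrr ψ.2)
      obtain ⟨n, hn⟩ := H5.exists_nat_degree (H5.isCharacter_sub_of_constituent hρ ψ.2 h0)
      rw [Pi.sub_apply, ρ1, hD', sub_eq_iff_eq_add, ← Nat.cast_add, Nat.cast_inj] at hn
      rw [← Finset.mul_sum, sum_zero h he gen hv ψ.2 (fun a => h1 (Subtype.ext a)) (fun z hz =>
        H5.apply_eq_degree_of_constituent hρ ψ.2 h0 ?_) hD' (by omega), mul_zero]
      simp only [eρ, Pi.mul_apply, Complex.mul_conj, Complex.normSq_eq_norm_sq,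
        H5.norm_apply_of_mem_center hχ (h.zc hz)]
    · simp
  have s2 : (Nat.card W : ℂ) * Nat.card T = Nat.card T := k2.symm.trans s
  rw [mul_eq_right₀ H5.natCard_ne_zero, Nat.cast_eq_one] at s2
  omega

/-- the constituents of the permutation character are flat -/
theorem Flat.isflat [Fintype G] (h : CC T Z e) (he : 2 ≤ e)
    (gen : ∀ N : Subgroup G, N.Normal → T ≤ N → Z ≤ N → N = ⊤)
    {X : Type*} [MulAction G X] [Finite X]
    (free : ∀ c ∈ T ⊔ Z, c ∉ Z → ∀ x : X, c • x ≠ x)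
    (hv1 : e * (e + 3) + 1 ≤ Nat.card T)
    (hv2 : e * Nat.card X + e * (Nat.card T - 1) < (Nat.card T - 1) ^ 2)
    {m D : IrrCharacter G → ℕ}
    (hm : ∀ χ : IrrCharacter G, classInner (fun g => (Nat.card (fixedBy X g) : ℂ)) χ.1 = m χ)
    (hD : ∀ χ : IrrCharacter G, χ.1 1 = D χ) (hX : ∑ χ, m χ * D χ = Nat.card X)
    {χ : IrrCharacter G} (h0 : m χ ≠ 0) (t t' : T) (a : t ≠ 1) (b : t' ≠ 1) : χ.1 t = χ.1 t' := by
  classical
  revert t t'
  by_contra hf
  obtain ⟨W, S, cW, hS, ex, rel⟩ := h.exc (ne_bot he hv1) χ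
  obtain ⟨E, -, -, cE, k, -⟩ := ex.nonflat (cW ▸ hv1) hS hf
  have k1 := k _ (rel _ (H5.isClassFunction_of_isCharacter (H5.isCharacter_perm X)) fun c hc hcZ => by
    have : IsEmpty (fixedBy X c) := ⟨fun x => free c hc hcZ x.1 x.2⟩
    rw [Nat.card_of_isEmpty, Nat.cast_zero])
  have k2 := k (fun j => j.1 1) fun t ht => ex.deg_rel ht
  simp only [hm, hD, Nat.cast_inj] at k1 k2
  have lg := h.large he gen hv1 χ.2 (fun a => hf (flat_iff.2 a)) (hD χ)
  have le : E.card * D χ ≤ Nat.card X := by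
    rw [← hX, ← smul_eq_mul, ← Finset.sum_const]
    refine (Finset.sum_le_sum fun j hj => ?_).trans (Finset.sum_le_sum_of_subset (Finset.subset_univ E))
    rw [k1 j hj, k2 j hj]
    exact Nat.le_mul_of_pos_left _ (Nat.pos_of_ne_zero h0)
  rw [cW] at cE
  rw [← cE, Nat.add_sub_cancel] at hv2
  have : E.card * e ≤ D χ + e := by omega
  nlinarith [Nat.mul_le_mul_left (E.card * e) this, Nat.mul_le_mul_left e le]

theorem CC.flat [Fintype G] (h : CC T Z e) (he : 2 ≤ e)
    (gen : ∀ N : Subgroup G, N.Normal → T ≤ N → Z ≤ N → N = ⊤)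
    {X : Type*} [MulAction G X] [Finite X] [Nonempty X]
    (free : ∀ c ∈ T ⊔ Z, c ∉ Z → ∀ x : X, c • x ≠ x)
    (tr : ∀ N : Subgroup G, N.Normal → T ≤ N → ∀ x y : X, ∃ g ∈ N, g • x = y)
    (hv1 : e * (e + 3) + 1 ≤ Nat.card T)
    (hv2 : e * Nat.card X + e * (Nat.card T - 1) < (Nat.card T - 1) ^ 2)
    {c : G} (hc : c ∈ T ⊔ Z) (hcZ : c ∉ Z) :
    (∑ g : G, Nat.card (fixedBy X (g * c * g⁻¹ * c⁻¹))) * (Nat.card T - 1) ^ 2 ≤
      Nat.card G * ((Nat.card T - 1) ^ 2 + (e + 1) * Nat.card X) := by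
  classical
  have hπ := H5.isCharacter_perm (G := G) X
  have cπ := H5.isClassFunction_of_isCharacter hπ
  choose m hm using fun χ : IrrCharacter G =>
    H5.exists_nat_classInner hπ (H5.isCharacter_of_isIrr χ.2)
  choose D D0 hD using fun χ : IrrCharacter G => H5.exists_pos_nat_degree χ.2
  have hX : ∑ χ, m χ * D χ = Nat.card X := by
    have := H5.classFunction_apply_eq_sum cπ 1
    simp only [hm, hD, fixedBy_one_eq_univ, Nat.card_univ] at this
    exact_mod_cast this.symm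
  obtain ⟨t, ht, z, hz, rfl⟩ := h.dec hc
  have t1 : (⟨t, ht⟩ : T) ≠ 1 := fun a => hcZ (by
    rw [show t = 1 from congrArg Subtype.val a, mul_one]; exact hz)
  set u := Nat.card T - 1 with hu
  have A : ((∑ g : G, Nat.card (fixedBy X (g * (z * t) * g⁻¹ * (z * t)⁻¹)) : ℕ) : ℝ) =
      Nat.card G * ∑ χ : IrrCharacter G, m χ * ‖χ.1 t‖ ^ 2 / D χ := by
    rw [← Complex.ofReal_inj]
    push_cast
    simp only [H5.classFunction_apply_eq_sum cπ (_ * (z * t)⁻¹), hm]
    rw [Finset.sum_comm, Finset.mul_sum]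
    refine Finset.sum_congr rfl fun χ _ => ?_
    have hχ := H5.isCharacter_of_isIrr χ.2
    obtain ⟨ω, n1, -, hω⟩ := H5.exists_apply_mul_eq_of_norm_eq hχ
      (H5.norm_apply_of_mem_center χ.2 (h.zc hz))
    simp only [H5.isCharacter_mul_comm hχ _ (z * t)⁻¹]
    rw [← Finset.mul_sum, H5.sum_irr_mul_conj_eq χ.2, H5.isIrr_apply_inv χ.2, hD, mul_assoc,
      Complex.conj_mul', hω, norm_mul, n1, one_mul]
    ring
  have B : ∀ χ : IrrCharacter G, (m χ * ‖χ.1 t‖ ^ 2 / D χ : ℝ) * u ^ 2 ≤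
      (if χ = ⟨_, H5.isIrrCharacter_one⟩ then (u : ℝ) ^ 2 else 0) + (e + 1) * (m χ * D χ) := fun χ => by
    have d0 : (0 : ℝ) < D χ := by exact_mod_cast D0 χ
    split_ifs with h1
    · have m1 : m χ = 1 := by
        have := hm χ
        rw [h1, inner_one fun x y => (tr ⊤ inferInstance le_top x y).imp fun _ a => a.2, ← h1] at this
        exact_mod_cast this.symm
      have d1 : D χ = 1 := by
        have := hD χ
        rw [h1] at this
        rw [h1]
        exact Nat.cast_eq_one.1 this.symm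
      rw [m1, d1, h1]
      simp only [Nat.cast_one, norm_one, one_pow, mul_one, div_one, one_mul, le_add_iff_nonneg_right]
      positivity
    by_cases h0 : m χ = 0
    · simp [h0]
    obtain ⟨W, S, cW, hS, ex, -⟩ := h.exc (ne_bot he hv1) χ
    obtain ⟨b1, b2⟩ := ex.flat hS (isflat h he gen free hv1 hv2 hm hD hX h0)
    have hk := H5.isCharacter_of_isIrr χ.2
    rcases b2 with b2 | b2
    · have le : T ≤ H5.charKer hk := fun t ht => b2 ⟨t, ht⟩
      have := inner_zero χ.2 (fun a => h1 (Subtype.ext a)) (N := H5.charKer hk) (fun _ a => a)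
        (tr _ inferInstance le)
      rw [hm, Nat.cast_eq_zero] at this
      exact absurd this h0
    have b3 : (u : ℝ) ≤ D χ := by
      have := b2 _ (hD χ)
      exact_mod_cast (by omega : u ≤ D χ)
    have b4 : ‖χ.1 t‖ ^ 2 ≤ e + 1 := by simpa only [cW] using b1 _ t1
    rw [zero_add, div_mul_eq_mul_div, div_le_iff₀ d0]
    calc _ ≤ (m χ : ℝ) * (e + 1) * (D χ) ^ 2 := by gcongr
      _ = _ := by ring
  have C := Finset.sum_le_sum fun χ (_ : χ ∈ Finset.univ) => B χ
  rw [← Finset.sum_mul, Finset.sum_add_distrib, Finset.sum_ite_eq', if_pos (Finset.mem_univ _),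
    ← Finset.mul_sum] at C
  have hX' : (∑ χ, (m χ : ℝ) * D χ) = Nat.card X := by exact_mod_cast hX
  rw [hX'] at C
  have : ((∑ g : G, Nat.card (fixedBy X (g * (z * t) * g⁻¹ * (z * t)⁻¹)) : ℕ) : ℝ) * u ^ 2 ≤
      Nat.card G * (u ^ 2 + (e + 1) * Nat.card X) := by
    rw [A, mul_assoc]; gcongr
  exact_mod_cast this

end Cfsg.Agent.SNG
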