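import Cfsg.Agent.SNG.Norm
import Cfsg.Agent.SNG.Flat
import Cfsg.Agent.SNG.CS

set_option autoImplicit false
set_option linter.unusedSectionVars false

namespace Cfsg.Agent.SNG

open MulAction Module
open scoped ComplexConjugate

variable {F L : Type*} [Field F] [Fintype F] [Field L] [Algebra F L] [Finite L]
  {G : Subgroup (L ≃ₗ[F] L)}

theorem MinOv.big (h : MinOv G) (hn : (finrank F L).Prime) (h11 : 11 ≤ finrank F L) {a : L}
    (ha : Good G a) {c : Lˣ} (hc : c ∈ C0 F L) (hc' : c ∉ S0 F L) :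
    Fintype.card F ^ (finrank F L - 1) ≤ (orbit (stabilizer G a) ((c : L) * a)).ncard := by
  classical
  have := finite_gl (F := F) (L := L)
  have := Fintype.ofFinite G
  have hcc := h.cc hn h11
  have nu := num (F := F) (L := L) hn h11
  have sup := h.toOv.sg_sup hn h11
  have cT : Nat.card (sg G (T0 F L)) = Nat.card (T0 F L) := h.toOv.card_sg inf_le_left
  have act : ∀ (g : G) (u : Lˣ), mu F L u = g → ∀ x : L, g • x = u * x := fun g u e x => by
    change (g : L ≃ₗ[F] L) x = _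
    rw [← e, mu_apply]
  have x0 : ∀ x : orbit G a, (x : L) ≠ 0 := by
    rintro ⟨_, g, rfl⟩ e
    exact ha.1 ((smul_eq_zero_iff_eq g).1 e)
  have : Nonempty (orbit G a) := ⟨⟨a, mem_orbit_self a⟩⟩
  have hm : Nat.card (orbit G a) + 1 ≤ Fintype.card F ^ finrank F L := by
    rw [← card_top_eq_pow, Nat.succ_le_iff]
    exact Finite.card_subtype_lt (x := 0) fun e => x0 ⟨0, e⟩ rfl
  obtain ⟨c', hc1⟩ : ∃ c' : G, mu F L c = c' := ⟨⟨_, h.mem c hc⟩, rfl⟩
  have zn : (sg G (Z0 F L)).Normal := ⟨fun z hz g => by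
    rw [Subgroup.mem_center_iff.1 (hcc.zc hz) g, mul_inv_cancel_right]; exact hz⟩
  have h1 := hcc.flat (by omega) h.gen (X := orbit G a)
    (fun g hg hZ x e => by
      rw [sup] at hg
      obtain ⟨u, -, hu⟩ := mem_sg.1 hg
      have e1 : (u : L) * x = x := by rw [← act g u hu]; exact congrArg Subtype.val e
      have e2 : u = 1 := Units.ext ((mul_eq_right₀ (x0 x)).1 e1)
      exact hZ (mem_sg.2 ⟨1, one_mem _, by rw [← hu, e2]⟩))
    (fun N hN hT => by
      have h0 : Subgroup.normalClosure (sg G (T0 F L) : Set G) ≤ N := Subgroup.normalClosure_le_normal hT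
      have top := h.gen (N ⊔ sg G (Z0 F L)) inferInstance (hT.trans le_sup_left) le_sup_right
      have key : ∀ x : orbit G a, ∃ n ∈ N, n • a = x := by
        rintro ⟨_, g, rfl⟩
        obtain ⟨n, hn', z, hz, rfl⟩ := Subgroup.mem_sup_of_normal_right.1 (top ▸ Subgroup.mem_top g)
        obtain ⟨u, hu, e⟩ := mem_sg.1 hz
        obtain ⟨n', a1, a2⟩ := ha.2 u hu
        exact ⟨n * n', N.mul_mem hn' (h0 a1), by rw [mul_smul, a2, ← act z u e, ← mul_smul]⟩
      intro x y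
      obtain ⟨n, a1, a2⟩ := key x
      obtain ⟨n', b1, b2⟩ := key y
      refine ⟨n' * n⁻¹, N.mul_mem b1 (N.inv_mem a1), Subtype.ext ?_⟩
      change (n' * n⁻¹) • (x : L) = y
      rw [← a2, mul_smul, inv_smul_smul, b2])
    (by rw [cT]; exact nu.hv1 le_rfl) (by rw [cT]; exact nu.hv2 le_rfl hm) (c := c')
    (by rw [sup]; exact mem_sg.2 ⟨c, hc, hc1⟩)
    (fun e => by
      obtain ⟨u, hu, e1⟩ := mem_sg.1 e
      exact hc' (mu_inj (e1.trans hc1.symm) ▸ hu.2))
  have h2 := cs (G := G) (X := orbit G a) (fun u u' => ∃ g : G, g • a = u ∧ g • ((c : L) * a) = u')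
    (fun g x y ⟨k, a1, a2⟩ => ⟨g * k, by rw [mul_smul, a1]; rfl, by rw [mul_smul, a2]; rfl⟩)
    (orbit (stabilizer G a) ((c : L) * a)).ncard
    (by
      rintro ⟨_, g0, rfl⟩
      rw [← Nat.card_coe_set_eq]
      refine Nat.card_congr (Equiv.ofBijective (fun y => ⟨g0⁻¹ • (y.1 : L), ?_⟩) ⟨fun y y' e => ?_, ?_⟩)
      · obtain ⟨g, a1, a2⟩ := y.2
        refine ⟨⟨g0⁻¹ * g, ?_⟩, ?_⟩
        · rw [mem_stabilizer_iff, mul_smul, a1]; exact inv_smul_smul g0 a
        · change (g0⁻¹ * g) • ((c : L) * a) = _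
          rw [mul_smul, a2]
      · exact Subtype.ext (Subtype.ext (MulAction.injective g0⁻¹ (congrArg Subtype.val e)))
      · rintro ⟨_, s, rfl⟩
        refine ⟨⟨⟨(g0 * s * c') • a, mem_orbit _ _⟩, g0 * s, ?_, ?_⟩, Subtype.ext ?_⟩
        · rw [mul_smul, show (s : G) • a = a from s.2]
        · change _ = (g0 * s * c') • a
          rw [mul_smul _ c', act c' c hc1]
        · change g0⁻¹ • (g0 * s * c') • a = (s : G) • ((c : L) * a)
          rw [mul_smul _ c', act c' c hc1, mul_smul, inv_smul_smul]) c'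
  have h3 : Nat.card (Z0 F L) * Nat.card (T0 F L) ≤
      Nat.card {u : orbit G a // ∃ g : G, g • a = u ∧ g • ((c : L) * a) = (c' • u : orbit G a)} := by
    rw [← card_C0 hn h11]
    refine Nat.card_le_card_of_injective (fun u => ⟨⟨(⟨_, h.mem u u.2⟩ : G) • a, mem_orbit _ _⟩,
      ⟨_, h.mem u u.2⟩, rfl, ?_⟩) fun u u' e => ?_
    · change _ = c' • (⟨_, h.mem u u.2⟩ : G) • a
      rw [act c' c hc1, act _ u rfl, act _ u rfl, mul_left_comm]
    · have e1 : (⟨_, h.mem u u.2⟩ : G) • a = (⟨_, h.mem u' u'.2⟩ : G) • a := congrArg (fun x => x.1.1) e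
      rw [act _ u rfl, act _ u' rfl] at e1
      exact Subtype.ext (Units.ext (mul_right_cancel₀ ha.1 e1))
  refine nu.big le_rfl hm h3 ?_
  rw [cT] at h1
  have h4 : ((∑ g : G, Nat.card (fixedBy (orbit G a) (g * c' * g⁻¹ * c'⁻¹)) : ℕ) : ℝ) *
      ((Nat.card (T0 F L) - 1 : ℕ) : ℝ) ^ 2 ≤ Nat.card G * (((Nat.card (T0 F L) - 1 : ℕ) : ℝ) ^ 2 +
        (finrank F L + 1) * Nat.card (orbit G a)) := by exact_mod_cast h1
  rw [Nat.cast_sum] at h4
  have h5 : (0 : ℝ) < Nat.card G := Nat.cast_pos.2 Nat.card_pos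
  generalize (∑ g : G, (Nat.card (fixedBy (orbit G a) (g * c' * g⁻¹ * c'⁻¹)) : ℝ)) = S at h2 h4
  generalize Nat.card {u : orbit G a // ∃ g : G, g • a = u ∧ g • ((c : L) * a) = (c' • u : orbit G a)} = φ at h2 ⊢
  generalize (orbit (stabilizer G a) ((c : L) * a)).ncard = k at h2 ⊢
  generalize Nat.card (T0 F L) - 1 = w at h4 ⊢
  generalize Nat.card (orbit G a) = m at h2 h4 ⊢
  generalize Nat.card G = N at h2 h4 h5
  refine le_of_mul_le_mul_right ?_ h5
  have h6 : (0 : ℝ) ≤ (m : ℝ) * k := by positivity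
  have h7 : (0 : ℝ) ≤ (w : ℝ) ^ 2 := by positivity
  calc ((φ : ℝ) - k) ^ 2 * (w : ℝ) ^ 2 * N = ((φ : ℝ) - k) ^ 2 * N * (w : ℝ) ^ 2 := by ring
    _ ≤ (m : ℝ) * k * (S - N) * (w : ℝ) ^ 2 := mul_le_mul_of_nonneg_right h2 h7
    _ = (m : ℝ) * k * (S * (w : ℝ) ^ 2 - N * (w : ℝ) ^ 2) := by ring
    _ ≤ (m : ℝ) * k * (N * ((finrank F L + 1) * m)) := mul_le_mul_of_nonneg_left (by linarith) h6
    _ = _ := by ring

end Cfsg.Agent.SNG
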