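import Cfsg.Agent.SNG.Defs
import Mathlib.RingTheory.IntegralDomain

/-! Project SNG: column relations per central character on the TI set `T Z`. -/

set_option autoImplicit false
set_option linter.unusedSectionVars false

namespace Cfsg.Agent.SNG

open MulAction Module
open scoped ComplexConjugate

variable {G : Type*} [Group G] {T Z : Subgroup G} {e : ℕ}

theorem CC.col_zc (h : CC T Z e) {z : G} (hz : z ∈ Z) (g : G) : g * z = z * g :=
  Subgroup.mem_center_iff.1 (h.zc hz) g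

theorem CC.col_normal (h : CC T Z e) : Z.Normal :=
  ⟨fun z hz g => by rwa [h.col_zc hz g, mul_inv_cancel_right]⟩

theorem CC.dec (h : CC T Z e) {c : G} (hc : c ∈ T ⊔ Z) : ∃ t ∈ T, ∃ z ∈ Z, c = z * t := by
  have := h.col_normal
  have hc' : c ∈ ((T ⊔ Z : Subgroup G) : Set G) := hc
  rw [Subgroup.mul_normal] at hc'
  obtain ⟨t, ht, z, hz, rfl⟩ := hc'
  exact ⟨t, ht, z, hz, h.col_zc hz t⟩

theorem CC.col_comm (h : CC T Z e) {c c' : G} (hc : c ∈ T ⊔ Z) (hc' : c' ∈ T ⊔ Z) :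
    c * c' = c' * c := by
  obtain ⟨t, ht, z, hz, rfl⟩ := h.dec hc
  obtain ⟨t', ht', z', hz', rfl⟩ := h.dec hc'
  have h1 : Commute z t := (h.col_zc hz t).symm
  have h2 : Commute z z' := (h.col_zc hz z').symm
  have h3 : Commute z t' := (h.col_zc hz t').symm
  have h4 : Commute t z' := h.col_zc hz' t
  have h5 : Commute t t' := h.comm t ht t' ht'
  exact ((h2.mul_right h3).mul_left (h4.mul_right h5)).eq

theorem CC.inf_eq [Finite G] (h : CC T Z e) : T ⊓ Z = ⊥ := by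
  refine (Subgroup.eq_bot_iff_forall _).2 fun x hx => ?_
  have h1 : orderOf x ∣ Nat.card T := Subgroup.orderOf_dvd_natCard T hx.1
  have h2 : orderOf x ∣ Nat.card Z := Subgroup.orderOf_dvd_natCard Z hx.2
  exact orderOf_eq_one_iff.1 (Nat.eq_one_of_dvd_coprimes h.cop h1 h2)

theorem CC.col_notMem [Finite G] (h : CC T Z e) {t z : G} (ht : t ∈ T) (h1 : t ≠ 1) (hz : z ∈ Z) :
    z * t ∉ Z := fun h' => h1 (by
  have : t ∈ T ⊓ Z := ⟨ht, (Z.mul_mem_cancel_left hz).1 h'⟩
  rwa [h.inf_eq, Subgroup.mem_bot] at this)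

theorem CC.card_sup [Finite G] (h : CC T Z e) :
    Nat.card (T ⊔ Z : Subgroup G) = Nat.card Z * Nat.card T := by
  have := h.col_normal
  have h1 := (Z.subgroupOf (T ⊔ Z)).card_mul_index
  rw [Nat.card_congr (Subgroup.subgroupOfEquivOfLe (le_sup_right : Z ≤ T ⊔ Z)).toEquiv] at h1
  have h2 : (Z.subgroupOf (T ⊔ Z)).index = Nat.card T := by
    change Z.relIndex (T ⊔ Z) = _
    rw [Subgroup.relIndex_sup_right, ← Subgroup.inf_relIndex_right, inf_comm, h.inf_eq,
      Subgroup.relIndex_bot_left]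
  rw [← h1, h2]

theorem CC.col_pow [Finite G] (h : CC T Z e) {t z : G} (ht : t ∈ T) (hz : z ∈ Z)
    (h1 : (z * t) ^ Nat.card T = 1) : z = 1 := by
  have hc : Commute z t := (h.col_zc hz t).symm
  have h2 : t ^ Nat.card T = 1 := orderOf_dvd_iff_pow_eq_one.1 (Subgroup.orderOf_dvd_natCard T ht)
  rw [hc.mul_pow, h2, mul_one] at h1
  exact orderOf_eq_one_iff.1 (Nat.eq_one_of_dvd_coprimes h.cop (orderOf_dvd_of_pow_eq_one h1)
    (Subgroup.orderOf_dvd_natCard Z hz))

theorem CC.mem_T [Finite G] (h : CC T Z e) {c : G} (hc : c ∈ T ⊔ Z) (h1 : c ^ Nat.card T = 1) :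
    c ∈ T := by
  obtain ⟨t, ht, z, hz, rfl⟩ := h.dec hc
  rwa [h.col_pow ht hz h1, one_mul]

theorem CC.mem_norm [Finite G] (h : CC T Z e) {c g : G} (hc : c ∈ T ⊔ Z) (hcZ : c ∉ Z)
    (hg : g * c * g⁻¹ ∈ T ⊔ Z) : g ∈ Subgroup.normalizer (T : Set G) := by
  have := h.col_normal
  refine Subgroup.mem_normalizer_fintype fun t (ht : t ∈ T) => ?_
  have h1 : g * c * g⁻¹ ∉ Z := fun h' => hcZ (by
    simpa [mul_assoc] using h.col_normal.conj_mem _ h' g⁻¹)
  have h2 : t * c = c * t := h.col_comm (Subgroup.mem_sup_left ht) hc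
  refine h.mem_T (h.cent _ hg h1 _ ?_) ?_
  · calc g * t * g⁻¹ * (g * c * g⁻¹) = g * (t * c) * g⁻¹ := by group
      _ = g * c * g⁻¹ * (g * t * g⁻¹) := by rw [h2]; group
  · rw [conj_pow, orderOf_dvd_iff_pow_eq_one.1 (Subgroup.orderOf_dvd_natCard T ht), mul_one,
      mul_inv_cancel]

theorem CC.pow_mem [Finite G] (h : CC T Z e) {g : G} (hg : g ∈ Subgroup.normalizer (T : Set G)) :
    g ^ e ∈ T ⊔ Z := by
  have : ((T ⊔ Z).subgroupOf (Subgroup.normalizer (T : Set G))).Normal := ⟨fun c hc n => by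
    rw [Subgroup.mem_subgroupOf] at hc ⊢
    obtain ⟨t, ht, z, hz, hzt⟩ := h.dec hc
    have h1 : (n : G) * t * (n : G)⁻¹ ∈ T := (Subgroup.mem_normalizer_iff.1 n.2 t).1 ht
    have h2 : ((n * c * n⁻¹ : Subgroup.normalizer (T : Set G)) : G) = z * (n * t * (n : G)⁻¹) := by
      simp only [Subgroup.coe_mul, Subgroup.coe_inv, hzt, ← mul_assoc, h.col_zc hz n]
    rw [h2]
    exact Subgroup.mul_mem _ (Subgroup.mem_sup_right hz) (Subgroup.mem_sup_left h1)⟩
  have := Subgroup.pow_index_mem ((T ⊔ Z).subgroupOf (Subgroup.normalizer (T : Set G))) ⟨g, hg⟩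
  rw [Subgroup.mem_subgroupOf] at this
  rw [← h.idx]
  exact this

theorem CC.col_cent1 [Finite G] (h : CC T Z e) {t : G} (ht : t ∈ T) (h1 : t ≠ 1) :
    Subgroup.centralizer ({t} : Set G) = T ⊔ Z := by
  have h2 : t ∉ Z := by simpa using h.col_notMem ht h1 Z.one_mem
  ext g
  rw [Subgroup.mem_centralizer_singleton_iff]
  exact ⟨h.cent t (Subgroup.mem_sup_left ht) h2 g,
    fun hg => h.col_comm hg (Subgroup.mem_sup_left ht)⟩

theorem CC.col_cent [Finite G] (h : CC T Z e) (hT : T ≠ ⊥) :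
    Subgroup.centralizer (T : Set G) = T ⊔ Z := by
  obtain ⟨⟨t, ht⟩, h1⟩ := (Subgroup.ne_bot_iff_exists_ne_one).1 hT
  have h2 : t ≠ 1 := fun h' => h1 (Subtype.ext h')
  refine le_antisymm ?_ fun g hg => Subgroup.mem_centralizer_iff.2 fun s hs =>
    h.col_comm (Subgroup.mem_sup_left hs) hg
  rw [← h.col_cent1 ht h2]
  exact Subgroup.centralizer_le (Set.singleton_subset_iff.2 ht)

/-- the central character -/
noncomputable def colZ (χ : IrrCharacter G) (z : G) : ℂ := χ.1 z / χ.1 1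

theorem col_spec [Finite G] (χ : IrrCharacter G) {z : G} (hz : z ∈ Subgroup.center G) :
    colZ χ z * conj (colZ χ z) = 1 ∧ ∀ g, χ.1 (z * g) = colZ χ z * χ.1 g := by
  obtain ⟨ω, h1, -, h2⟩ := H5.exists_apply_mul_eq_of_norm_eq (H5.isCharacter_of_isIrr χ.2)
    (H5.norm_apply_of_mem_center χ.2 hz)
  have h3 : colZ χ z = ω := by
    have := h2 1
    rw [mul_one] at this
    rw [colZ, this, mul_div_assoc, div_self (H5.degree_ne_zero χ.2), mul_one]
  rw [h3]
  refine ⟨?_, h2⟩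
  rw [Complex.mul_conj, Complex.normSq_eq_norm_sq, h1]
  simp

theorem col_one (χ : IrrCharacter G) : colZ χ 1 = 1 := div_self (H5.degree_ne_zero χ.2)

theorem col_mul [Finite G] (χ : IrrCharacter G) {z : G} (hz : z ∈ Subgroup.center G) (g : G) :
    colZ χ (z * g) = colZ χ z * colZ χ g := by
  rw [colZ, (col_spec χ hz).2, mul_div_assoc]
  rfl

open Classical in
theorem col_orth [Finite G] [Fintype Z] (hZ : Z ≤ Subgroup.center G) (χ χ0 : IrrCharacter G) :
    ∑ z : Z, colZ χ z * conj (colZ χ0 z) =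
      if ∀ z ∈ Z, colZ χ z = colZ χ0 z then (Nat.card Z : ℂ) else 0 := by
  split_ifs with h
  · rw [Finset.sum_congr rfl fun z _ => by rw [h z z.2, (col_spec χ0 (hZ z.2)).1]]
    simp
  · let φ : Z →* ℂ :=
      { toFun := fun z => colZ χ z * conj (colZ χ0 z)
        map_one' := by simp [col_one]
        map_mul' := fun a b => by
          simp only [Subgroup.coe_mul, col_mul _ (hZ a.2), map_mul]
          ring }
    refine sum_hom_units_eq_zero φ fun h1 => h fun z hz => ?_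
    have h2 : colZ χ z * conj (colZ χ0 z) = 1 := DFunLike.congr_fun h1 ⟨z, hz⟩
    have h3 := (col_spec χ0 (hZ hz)).1
    calc colZ χ z = colZ χ z * (colZ χ0 z * conj (colZ χ0 z)) := by rw [h3, mul_one]
      _ = colZ χ0 z * (colZ χ z * conj (colZ χ0 z)) := by ring
      _ = colZ χ0 z := by rw [h2, mul_one]

open Classical in
/-- the irreducible characters over the central character of `χ0` -/
noncomputable def colS [Fintype (IrrCharacter G)] (Z : Subgroup G) (χ0 : IrrCharacter G) :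
    Finset (IrrCharacter G) := Finset.univ.filter fun χ => ∀ z ∈ Z, colZ χ z = colZ χ0 z

theorem col_proj [Finite G] [Fintype Z] [Fintype (IrrCharacter G)] (hZ : Z ≤ Subgroup.center G)
    (χ0 : IrrCharacter G) (a : IrrCharacter G → ℂ) (g : G) :
    (Nat.card Z : ℂ) * ∑ χ ∈ colS Z χ0, a χ * χ.1 g =
      ∑ z : Z, conj (colZ χ0 z) * ∑ χ : IrrCharacter G, a χ * χ.1 (z * g) := by
  simp only [Finset.mul_sum]
  rw [Finset.sum_comm, colS, Finset.sum_filter]
  refine Finset.sum_congr rfl fun χ _ => ?_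
  have h1 : ∑ z : Z, conj (colZ χ0 z) * (a χ * χ.1 (z * g)) =
      (∑ z : Z, colZ χ z * conj (colZ χ0 z)) * (a χ * χ.1 g) := by
    rw [Finset.sum_mul]
    refine Finset.sum_congr rfl fun z _ => ?_
    rw [(col_spec χ (hZ z.2)).2]
    ring
  rw [h1, col_orth hZ]
  split_ifs <;> simp

theorem CC.col_conj [Finite G] (h : CC T Z e) {t t' z : G} (ht : t ∈ T) (ht' : t' ∈ T)
    (hz : z ∈ Z) (hc : IsConj (z * t) t') : z = 1 := by
  refine h.col_pow ht hz ?_
  have h1 := hc.pow (Nat.card T)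
  rw [orderOf_dvd_iff_pow_eq_one.1 (Subgroup.orderOf_dvd_natCard T ht')] at h1
  exact isConj_one_left.1 h1

theorem CC.exc [Fintype G] [Fintype T] [Fintype (IrrCharacter G)] (h : CC T Z e) (hT : T ≠ ⊥)
    (χ0 : IrrCharacter G) : ∃ (W : Subgroup (MulAut T)) (S : Finset (IrrCharacter G)),
      Nat.card W = e ∧ χ0 ∈ S ∧ Exc W S (fun χ t => χ.1 t) ∧
      ∀ π : G → ℂ, IsClassFunction G π → (∀ c ∈ T ⊔ Z, c ∉ Z → π c = 0) →
        ∀ t : T, t ≠ 1 → ∑ χ ∈ S, classInner π χ.1 * χ.1 t = 0 := by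
  have : Fintype Z := Fintype.ofFinite Z
  have hd : (Nat.card Z : ℂ) ≠ 0 := by exact_mod_cast Nat.card_pos.ne'
  have hap : ∀ (g : Subgroup.normalizer (T : Set G)) (t : T),
      ((T.normalizerMonoidHom g t : T) : G) = g * t * (g : G)⁻¹ := fun _ _ => rfl
  have hne : ∀ t : T, t ≠ 1 → (t : G) ≠ 1 := fun t ht h' => ht (Subtype.ext h')
  have key : ∀ t t' : T, (Nat.card Z : ℂ) * ∑ χ ∈ colS Z χ0, χ.1 t * conj (χ.1 t') =
      ∑ χ : IrrCharacter G, χ.1 t * conj (χ.1 t') := by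
    intro t t'
    have h1 := col_proj h.zc χ0 (fun χ => conj (χ.1 t')) t
    rw [Finset.sum_eq_single (1 : Z)] at h1
    · simp only [mul_comm (conj _)] at h1
      simpa [col_one] using h1
    · intro z _ hz
      have h2 := H5.sum_irr_mul_conj_of_not_isConj (g := (z : G) * t) (h := t')
        fun hc => hz (Subtype.ext (h.col_conj t.2 t'.2 z.2 hc))
      rw [Finset.sum_congr rfl fun χ _ => mul_comm _ _, h2, mul_zero]
    · simp
  refine ⟨T.normalizerMonoidHom.range, colS Z χ0, ?_, by simp [colS],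
    ⟨fun a b => Subtype.ext (h.comm a a.2 b b.2), ?_, fun χ _ => ?_, fun χ _ => ?_, ?_, ?_, ?_⟩, ?_⟩
  · rw [← Subgroup.index_ker, Subgroup.normalizerMonoidHom_ker, h.col_cent hT]
    exact h.idx
  · rintro _ ⟨g, rfl⟩ t ht hw
    rw [← MonoidHom.mem_ker, Subgroup.normalizerMonoidHom_ker, h.col_cent hT,
      Subgroup.mem_subgroupOf, ← h.col_cent1 t.2 (hne t ht),
      Subgroup.mem_centralizer_singleton_iff]
    have h1 := congrArg Subtype.val hw
    rw [hap] at h1
    exact mul_inv_eq_iff_eq_mul.1 h1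
  · exact H5.isCharacter_restrict (H5.isCharacter_of_isIrr χ.2) T
  · exact H5.degree_ne_zero χ.2
  · rintro χ - _ ⟨g, rfl⟩ t
    rw [hap]
    exact H5.isClassFunction_of_isIrr χ.2 _ _
  · rintro t ht _ ⟨g, rfl⟩
    refine mul_left_cancel₀ hd ?_
    have hc : IsConj (t : G) (T.normalizerMonoidHom g t : T) := isConj_iff.2 ⟨g, (hap g t).symm⟩
    rw [key, H5.sum_irr_mul_conj_of_isConj hc,
      h.col_cent1 t.2 (hne t ht), h.card_sup, Nat.cast_mul]
  · intro t ht t' hw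
    refine mul_left_cancel₀ hd ?_
    rw [key, mul_zero]
    refine H5.sum_irr_mul_conj_of_not_isConj fun hc => ?_
    obtain ⟨g, hg⟩ := isConj_iff.1 hc
    have h1 : (t : G) ∉ Z := by simpa using h.col_notMem t.2 (hne t ht) Z.one_mem
    have h2 := h.mem_norm (Subgroup.mem_sup_left t.2) h1 (hg ▸ Subgroup.mem_sup_left t'.2)
    exact hw _ ⟨⟨g, h2⟩, rfl⟩ (Subtype.ext hg)
  · intro π hπ h0 t ht
    refine mul_left_cancel₀ hd ?_
    rw [col_proj h.zc χ0 (fun χ => classInner π χ.1) t, mul_zero]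
    refine Finset.sum_eq_zero fun z _ => ?_
    rw [← H5.classFunction_apply_eq_sum hπ, h0 _ (Subgroup.mul_mem _ (Subgroup.mem_sup_right z.2)
      (Subgroup.mem_sup_left t.2)) (h.col_notMem t.2 (hne t ht) z.2), mul_zero]

end Cfsg.Agent.SNG
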