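import Cfsg.Agent.SNG.Col
import Mathlib.GroupTheory.Transfer

set_option autoImplicit false
set_option linter.unusedSectionVars false

namespace Cfsg.Agent.SNG

open MulAction Module Subgroup
open scoped ComplexConjugate

variable {G : Type*} [Group G] {T Z : Subgroup G} {e : ℕ}

theorem e1_one {x : G} {a b : ℕ} (h : a.Coprime b) (ha : x ^ a = 1) (hb : x ^ b = 1) : x = 1 := by
  simpa [h.gcd_eq_one] using pow_gcd_eq_one.2 ⟨ha, hb⟩

theorem e1_pow {H : Subgroup G} {x : G} (hx : x ∈ H) : x ^ Nat.card H = 1 :=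
  congrArg Subtype.val (pow_card_eq_one' (x := (⟨x, hx⟩ : H)))

theorem CC.e1_comm (h : CC T Z e) {a b : G} (ha : a ∈ T ⊔ Z) (hb : b ∈ T ⊔ Z) : Commute a b := by
  obtain ⟨t, ht, z, hz, rfl⟩ := h.dec ha
  obtain ⟨t', ht', z', hz', rfl⟩ := h.dec hb
  exact Commute.mul_left (mem_center_iff.1 (h.zc hz) _).symm
    (Commute.mul_right (mem_center_iff.1 (h.zc hz') _) (h.comm t ht t' ht'))

theorem CC.e1_syl [Finite G] (h : CC T Z e) {s : ℕ} [hs : Fact s.Prime] (hsT : s ∣ Nat.card T) :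
    ∃ P : Sylow s G, (P : Subgroup G) ≤ T := by
  obtain ⟨t, ht⟩ := exists_prime_orderOf_dvd_card' s hsT
  have h1 : (t : G) ≠ 1 := fun e => hs.out.one_lt.ne (by
    rw [← ht, show t = 1 from Subtype.ext e, orderOf_one])
  obtain ⟨P, hP⟩ := IsPGroup.exists_le_sylow (p := s) (P := zpowers (t : G))
    (IsPGroup.of_card (n := 1) (by rw [Nat.card_zpowers, orderOf_coe, ht, pow_one]))
  have hZ : ∀ z ∈ Z, ∀ k, z ^ s ^ k = 1 → z = 1 := fun z hz k hk =>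
    e1_one ((h.cop.coprime_dvd_left hsT).pow_left k) hk (e1_pow hz)
  have : Nontrivial P := ⟨⟨⟨t, hP (mem_zpowers _)⟩, 1, fun e => h1 (congrArg Subtype.val e)⟩⟩
  have := P.isPGroup'.center_nontrivial
  obtain ⟨⟨z, hz⟩, hz1⟩ := exists_ne (1 : center P)
  obtain ⟨k, hk⟩ := P.isPGroup' z
  have h2 : (z : G) ∈ T ⊔ Z := h.cent t (mem_sup_left t.2)
    (fun e => h1 (mem_bot.1 (h.inf_eq ▸ ⟨t.2, e⟩))) z
    (congrArg Subtype.val (mem_center_iff.1 hz ⟨t, hP (mem_zpowers _)⟩)).symm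
  refine ⟨P, fun x hx => ?_⟩
  obtain ⟨u, hu, y, hy, rfl⟩ := h.dec (h.cent z h2 (fun e => hz1 (Subtype.ext (Subtype.ext
    (hZ z e k (congrArg Subtype.val hk))))) x (congrArg Subtype.val (mem_center_iff.1 hz ⟨x, hx⟩)))
  obtain ⟨j, hj⟩ := P.isPGroup' ⟨_, hx⟩
  have h3 : y ^ s ^ j * u ^ s ^ j = 1 := by
    rw [← Commute.mul_pow (mem_center_iff.1 (h.zc hy) u).symm]; exact congrArg Subtype.val hj
  rw [hZ y hy j (mem_bot.1 (h.inf_eq ▸ mem_inf.2 ⟨eq_inv_of_mul_eq_one_left h3 ▸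
    T.inv_mem (T.pow_mem hu _), Z.pow_mem hy _⟩)), one_mul]
  exact hu

theorem CC.conj_into [Finite G] (h : CC T Z e) {s : ℕ} (hs : s.Prime) (hsT : s ∣ Nat.card T) {g : G}
    (hg : orderOf g = s) : ∃ k : G, k * g * k⁻¹ ∈ T := by
  have := Fact.mk hs
  obtain ⟨P, hP⟩ := h.e1_syl hsT
  obtain ⟨Q, hQ⟩ := IsPGroup.exists_le_sylow (p := s) (P := zpowers g)
    (IsPGroup.of_card (n := 1) (by rw [Nat.card_zpowers, hg, pow_one]))
  obtain ⟨k, rfl⟩ := exists_smul_eq G Q P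
  exact ⟨k, hP ⟨g, hQ (mem_zpowers g), rfl⟩⟩

theorem CC.transfer [Finite G] (h : CC T Z 1) : ∃ O : Subgroup G, O.Normal ∧ Z ≤ O ∧ O ⊓ T = ⊥ ∧
    O ⊔ T = ⊤ ∧ ∀ g : G, (orderOf g).Coprime (Nat.card T) → g ∈ O := by
  let _ : CommGroup ↥(T ⊔ Z) := { (inferInstance : Group ↥(T ⊔ Z)) with
    mul_comm := fun a b => Subtype.ext (h.e1_comm a.2 b.2) }
  let f : G →* G := (T ⊔ Z).subtype.comp ((powMonoidHom (Nat.card Z)).comp
    (MonoidHom.transfer (MonoidHom.id ↥(T ⊔ Z))))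
  have h1 : ∀ c ∈ T ⊔ Z, f c = c ^ ((T ⊔ Z).index * Nat.card Z) := fun c hc => by
    change ((MonoidHom.transfer (MonoidHom.id ↥(T ⊔ Z)) c ^ Nat.card Z : ↥(T ⊔ Z)) : G) = _
    rw [MonoidHom.transfer_eq_pow _ c fun k g hg => ?_, pow_mul]
    · rfl
    by_cases h2 : c ^ k ∈ Z
    · rw [mem_center_iff.1 (h.zc h2), inv_mul_cancel_right]
    · rw [(h.e1_comm (relIndex_eq_one.1 h.idx (h.mem_norm (g := g⁻¹) ((T ⊔ Z).pow_mem hc k) h2
        (by rwa [inv_inv]))) ((T ⊔ Z).pow_mem hc k)).eq, inv_mul_cancel_right]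
  have h2 : ∀ g, f g ∈ T := fun g => by
    obtain ⟨t, ht, z, hz, e⟩ := h.dec (MonoidHom.transfer (MonoidHom.id ↥(T ⊔ Z)) g).2
    change ((MonoidHom.transfer (MonoidHom.id ↥(T ⊔ Z)) g : ↥(T ⊔ Z)) : G) ^ Nat.card Z ∈ T
    rw [e, Commute.mul_pow (mem_center_iff.1 (h.zc hz) t).symm, e1_pow hz, one_mul]
    exact T.pow_mem ht _
  have h3 : (Nat.card T).Coprime ((T ⊔ Z).index * Nat.card Z) :=
    Nat.Coprime.mul_right (Nat.coprime_of_dvd fun s hs h3 h4 => by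
      have := Fact.mk hs
      obtain ⟨P, hP⟩ := h.e1_syl h3
      exact P.not_dvd_index (h4.trans (index_dvd_of_le (hP.trans le_sup_left)))) h.cop
  refine ⟨f.ker, inferInstance, fun z hz => ?_, eq_bot_iff.2 fun t ht =>
    e1_one h3 (e1_pow ht.2) ((h1 t (mem_sup_left ht.2)).symm.trans ht.1), eq_top_iff.2 fun g _ => ?_,
    fun g hg => e1_one hg (by rw [← map_pow, pow_orderOf_eq_one, map_one]) (e1_pow (h2 g))⟩
  · rw [MonoidHom.mem_ker, h1 z (mem_sup_right hz), mul_comm, pow_mul, e1_pow hz, one_pow]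
  · obtain ⟨t, ht⟩ := h3.pow_left_bijective.2 ⟨f g, h2 g⟩
    rw [← inv_mul_cancel_right g t]
    refine mul_mem (mem_sup_left ?_) (mem_sup_right t.2)
    rw [MonoidHom.mem_ker, map_mul, map_inv, h1 t (mem_sup_left t.2), mul_inv_eq_one]
    exact (congrArg Subtype.val ht).symm

end Cfsg.Agent.SNG
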