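import Cfsg.Agent.SNG.Defs

/-! Project SNG: multiplicities of linear characters of an abelian group. -/

set_option autoImplicit false
set_option linter.unusedSectionVars false

namespace Cfsg.Agent.SNG

open MulAction Module
open scoped ComplexConjugate

variable {T : Type*} [Group T] [Fintype T] {W : Subgroup (MulAut T)} {ι : Type*} {S : Finset ι}
  {f : ι → T → ℂ}

theorem Exc.nat (h : Exc W S f) {i : ι} (hi : i ∈ S) (l : T →* ℂˣ) : ∃ n : ℕ, mlt (f i) l = n :=
  H5.exists_nat_classInner (h.chr i hi) (H5.isCharacter_monoidHom l)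

theorem Exc.card_hom (h : Exc W S f) : Nat.card (T →* ℂˣ) = Nat.card T := by
  have : commutator T = ⊥ := le_bot_iff.1 (Subgroup.commutator_le.2 fun a _ b _ =>
    Subgroup.mem_bot.2 (commutatorElement_eq_one_iff_mul_comm.2 (h.comm a b)))
  rw [H5.card_monoidHom_eq_index_commutator, this, Subgroup.index_bot]

theorem exc1_sum (h : Exc W S f) [Fintype (T →* ℂˣ)] (φ : T → ℂ) :
    φ = ∑ l : T →* ℂˣ, mlt φ l • fun t => (l t : ℂ) := by
  classical
  have c : ∀ ψ : T → ℂ, IsClassFunction T ψ := fun ψ => H5.isClassFunction_iff_isConj.2 fun a b e => by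
    obtain ⟨g, rfl⟩ := isConj_iff.1 e
    rw [h.comm g, mul_inv_cancel_right]
  refine H5.classFunction_ext (c _) (c _) fun χ hχ => ?_
  obtain ⟨m, rfl⟩ := H5.exists_monoidHom_of_comm h.comm hχ
  simp only [H5.classInner_sum_left, H5.classInner_smul_left, H5.classInner_monoidHom, mul_ite, mul_one,
    mul_zero, Finset.sum_ite_eq', Finset.mem_univ, if_true, mlt]

theorem Exc.expand (h : Exc W S f) [Fintype (T →* ℂˣ)] (φ : T → ℂ) (t : T) :
    φ t = ∑ l : T →* ℂˣ, mlt φ l * (l t : ℂ) := by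
  conv_lhs => rw [exc1_sum h φ]
  simp only [Finset.sum_apply, Pi.smul_apply, smul_eq_mul]

theorem Exc.parseval (h : Exc W S f) [Fintype (T →* ℂˣ)] (φ : T → ℂ) :
    ∑ t, φ t * conj (φ t) = Nat.card T * ∑ l : T →* ℂˣ, mlt φ l * conj (mlt φ l) := by
  have : classInner φ φ = ∑ l : T →* ℂˣ, mlt φ l * conj (mlt φ l) := by
    conv_lhs => enter [2]; rw [exc1_sum h φ]
    simp only [H5.classInner_sum_right, H5.classInner_smul_right]
    exact Finset.sum_congr rfl fun l _ => mul_comm _ _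
  rw [← this, classInner, mul_inv_cancel_left₀ H5.natCard_ne_zero]

theorem Exc.mlt_inv (h : Exc W S f) {i : ι} (hi : i ∈ S) {w : MulAut T} (hw : w ∈ W) (l : T →* ℂˣ) :
    mlt (f i) (l.comp w.toMonoidHom) = mlt (f i) l := by
  have := H5.classInner_comp_equiv w (f i) fun t => (l t : ℂ)
  simp only [h.inv i hi w hw] at this
  exact this

theorem Exc.free_hom (h : Exc W S f) {w : MulAut T} (hw : w ∈ W) {l : T →* ℂˣ} (hl : l ≠ 1)
    (he : l.comp w.toMonoidHom = l) : w = 1 := by
  by_contra n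
  have hi : Function.Injective fun t => w t * t⁻¹ := fun t s e => by
    by_contra k
    refine n (h.free w hw (s⁻¹ * t) (fun e => k (inv_mul_eq_one.1 e).symm) ?_)
    rw [map_mul, map_inv, eq_mul_of_mul_inv_eq e, mul_assoc, inv_mul_cancel_left]
  refine hl (MonoidHom.ext fun u => ?_)
  obtain ⟨t, rfl⟩ := Finite.injective_iff_surjective.1 hi u
  rw [map_mul, map_inv, show l (w t) = l t from DFunLike.congr_fun he t, mul_inv_cancel, MonoidHom.one_apply]

theorem exc1_norm (h : Exc W S f) [Fintype W] (δ : T → ℂ) (h1 : δ 1 = 0) :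
    ∑ i ∈ S, classInner (f i) δ * conj (classInner (f i) δ) =
      ∑ w : W, classInner (fun t => δ (w.1 t)) δ := by
  classical
  have v0 : (Nat.card T : ℂ) ≠ 0 := H5.natCard_ne_zero
  have key : ∀ t, conj (δ t) * ∑ t', δ t' * ∑ i ∈ S, f i t * conj (f i t') =
      Nat.card T * ∑ w : W, δ (w.1 t) * conj (δ t) := fun t => by
    by_cases ht : t = 1
    · simp [ht, h1]
    have e : ∀ t', ∑ i ∈ S, f i t * conj (f i t') = ∑ w : W, if w.1 t = t' then (Nat.card T : ℂ) else 0 :=
      fun t' => by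
        by_cases k : ∃ w : W, w.1 t = t'
        · obtain ⟨w, rfl⟩ := k
          rw [h.col1 t ht w.1 w.2, Finset.sum_eq_single w, if_pos rfl]
          · refine fun u _ hu => if_neg fun e => hu (inv_mul_eq_one.1 (Subtype.ext ?_)).symm
            exact h.free _ (w⁻¹ * u).2 t ht (by
              rw [Subgroup.coe_mul, MulAut.mul_apply, e, Subgroup.coe_inv, MulAut.inv_apply_self])
          · simp
        · rw [h.col0 t ht t' fun w hw e => k ⟨⟨w, hw⟩, e⟩]
          exact (Finset.sum_eq_zero fun w _ => if_neg fun e => k ⟨w, e⟩).symm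
    simp only [e, Finset.mul_sum]
    rw [Finset.sum_comm]
    refine Finset.sum_congr rfl fun w _ => ?_
    simp only [mul_ite, mul_zero, Finset.sum_ite_eq, Finset.mem_univ, if_true]
    ring
  calc _ = (Nat.card T : ℂ)⁻¹ * (Nat.card T : ℂ)⁻¹ *
        ∑ t, conj (δ t) * ∑ t', δ t' * ∑ i ∈ S, f i t * conj (f i t') := by
        simp only [classInner, map_mul, map_sum, map_inv₀, map_natCast, Complex.conj_conj, Finset.mul_sum,
          Finset.sum_mul]
        rw [Finset.sum_comm]
        conv_rhs => rw [Finset.sum_comm]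
        refine Finset.sum_congr rfl fun t' _ => ?_
        rw [Finset.sum_comm]
        exact Finset.sum_congr rfl fun t _ => Finset.sum_congr rfl fun i _ => by ring
    _ = _ := by
        simp only [key, classInner, ← Finset.mul_sum]
        rw [Finset.sum_comm, mul_assoc, inv_mul_cancel_left₀ v0]

theorem exc1_diff (h : Exc W S f) [Fintype W] [DecidableEq (T →* ℂˣ)] (l m : T →* ℂˣ) :
    ∑ i ∈ S, (mlt (f i) l - mlt (f i) m) ^ 2 = ∑ w : W,
      (((if l.comp w.1.toMonoidHom = l then 1 else 0) - if m.comp w.1.toMonoidHom = l then 1 else 0) -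
        ((if l.comp w.1.toMonoidHom = m then 1 else 0) - if m.comp w.1.toMonoidHom = m then (1 : ℂ) else 0)) := by
  have := exc1_norm h ((fun t => (l t : ℂ)) - fun t => (m t : ℂ)) (by simp)
  refine (Finset.sum_congr rfl fun i hi => ?_).trans (this.trans (Finset.sum_congr rfl fun w _ => ?_))
  · obtain ⟨a, ha⟩ := h.nat hi l
    obtain ⟨b, hb⟩ := h.nat hi m
    rw [H5.classInner_sub_right, ← mlt, ← mlt, ha, hb, map_sub, map_natCast, map_natCast, sq]
  · simp only [← H5.classInner_monoidHom, ← H5.classInner_sub_left, ← H5.classInner_sub_right]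
    rfl

theorem exc1_fix (h : Exc W S f) [Fintype W] [DecidableEq (T →* ℂˣ)] {l : T →* ℂˣ} (hl : l ≠ 1) :
    ∑ w : W, (if l.comp w.1.toMonoidHom = l then (1 : ℂ) else 0) = 1 := by
  rw [Finset.sum_eq_single 1, if_pos (by rfl)]
  · exact fun w _ hw => if_neg fun e => hw (Subtype.ext (h.free_hom w.2 hl e))
  · simp

theorem Exc.norm2 (h : Exc W S f) {l m : T →* ℂˣ} (hl : l ≠ 1) (hm : m ≠ 1)
    (hne : ∀ w ∈ W, l.comp w.toMonoidHom ≠ m) :
    ∑ i ∈ S, (mlt (f i) l - mlt (f i) m) ^ 2 = 2 := by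
  classical
  have := Fintype.ofFinite W
  have h1 : ∀ w : W, ¬ l.comp w.1.toMonoidHom = m := fun w => hne _ w.2
  have h2 : ∀ w : W, ¬ m.comp w.1.toMonoidHom = l := fun w e =>
    hne _ (inv_mem w.2) (by rw [← e]; ext t; simp)
  simp only [exc1_diff h, if_neg (h1 _), if_neg (h2 _), sub_zero, zero_sub, sub_neg_eq_add,
    Finset.sum_add_distrib, exc1_fix h hl, exc1_fix h hm]
  norm_num

theorem Exc.norm1 (h : Exc W S f) {l : T →* ℂˣ} (hl : l ≠ 1) :
    ∑ i ∈ S, (mlt (f i) l - mlt (f i) 1) ^ 2 = Nat.card W + 1 := by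
  classical
  have := Fintype.ofFinite W
  have h1 : ∀ w : W, ¬ l.comp w.1.toMonoidHom = 1 := fun w e => hl (MonoidHom.ext fun t => by
    simpa using DFunLike.congr_fun e (w.1.symm t))
  simp only [exc1_diff h, MonoidHom.one_comp, if_neg (h1 _), if_neg hl.symm, if_true, sub_zero, zero_sub,
    sub_neg_eq_add, Finset.sum_add_distrib, exc1_fix h hl, Finset.sum_const, Finset.card_univ, nsmul_eq_mul,
    mul_one, Nat.card_eq_fintype_card]
  ring

theorem Exc.rel (c : ι → ℂ) (hc : ∀ t : T, t ≠ 1 → ∑ i ∈ S, c i * f i t = 0) (l m : T →* ℂˣ) :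
    ∑ i ∈ S, c i * (mlt (f i) l - mlt (f i) m) = 0 := by
  simp only [mlt, ← H5.classInner_sub_right, ← H5.classInner_smul_left, ← H5.classInner_sum_left]
  rw [classInner, Finset.sum_eq_zero fun t _ => ?_, mul_zero]
  by_cases ht : t = 1
  · simp [ht]
  · simp only [Finset.sum_apply, Pi.smul_apply, smul_eq_mul, hc t ht, zero_mul]

theorem Exc.deg_rel (h : Exc W S f) {t : T} (ht : t ≠ 1) : ∑ i ∈ S, f i 1 * f i t = 0 := by
  rw [← h.col0 t ht 1 fun w _ e => ht (w.map_eq_one_iff.1 e)]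
  exact Finset.sum_congr rfl fun i hi => by rw [H5.conj_degree (h.chr i hi), mul_comm]

theorem Exc.flat (h : Exc W S f) {i : ι} (hi : i ∈ S)
    (hf : ∀ t t' : T, t ≠ 1 → t' ≠ 1 → f i t = f i t') :
    (∀ t : T, t ≠ 1 → ‖f i t‖ ^ 2 ≤ Nat.card W + 1) ∧
      ((∀ t, f i t = f i 1) ∨ ∀ D : ℕ, f i 1 = D → Nat.card T ≤ D + 1) := by
  classical
  have v0 : (Nat.card T : ℂ) ≠ 0 := H5.natCard_ne_zero
  have key : ∀ t, t ≠ 1 → ∀ l : T →* ℂˣ, mlt (f i) l =
      f i t * (if 1 = l then 1 else 0) + (Nat.card T : ℂ)⁻¹ * (f i 1 - f i t) := fun t ht l => by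
    have e : f i = f i t • (fun s => ((1 : T →* ℂˣ) s : ℂ)) + fun s => if s = 1 then f i 1 - f i t else 0 := by
      funext s
      by_cases hs : s = 1
      · simp [hs]
      · simp [hs, hf s t hs ht]
    conv_lhs => rw [mlt, e]
    rw [H5.classInner_add_left, H5.classInner_smul_left, H5.classInner_monoidHom]
    simp [classInner]
  have ex : ∀ t : T, t ≠ 1 → ∃ l : T →* ℂˣ, l ≠ 1 := fun t ht => by
    have : Nontrivial T := ⟨t, 1, ht⟩
    have : Finite (T →* ℂˣ) := Nat.finite_of_card_ne_zero (by rw [h.card_hom]; exact Nat.card_pos.ne')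
    have : Nontrivial (T →* ℂˣ) :=
      Finite.one_lt_card_iff_nontrivial.1 (by rw [h.card_hom]; exact Finite.one_lt_card)
    exact exists_ne 1
  refine ⟨fun t ht => ?_, ?_⟩
  · obtain ⟨l, hl⟩ := ex t ht
    choose! a ha using fun j (hj : j ∈ S) => h.nat hj l
    choose! b hb using fun j (hj : j ∈ S) => h.nat hj 1
    have h1 : ∑ j ∈ S, ((a j : ℝ) - b j) ^ 2 = Nat.card W + 1 := by
      have := (Finset.sum_congr rfl fun j hj => by rw [ha j hj, hb j hj]).symm.trans (h.norm1 hl)
      exact_mod_cast this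
    have h2 : f i t = (((b i : ℝ) - a i : ℝ) : ℂ) := by
      push_cast
      rw [← ha i hi, ← hb i hi, key t ht, key t ht, if_neg hl.symm, if_pos rfl]; ring
    rw [h2, Complex.norm_real, Real.norm_eq_abs, sq_abs, ← h1, ← neg_sub, neg_sq]
    exact Finset.single_le_sum (f := fun j => ((a j : ℝ) - b j) ^ 2) (fun _ _ => sq_nonneg _) hi
  · refine (em _).imp_right fun n D hD => ?_
    obtain ⟨t, n⟩ := not_forall.1 n
    have ht : t ≠ 1 := fun e => n (e ▸ rfl)
    obtain ⟨l, hl⟩ := ex t ht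
    obtain ⟨a, ha⟩ := h.nat hi l
    obtain ⟨b, hb⟩ := h.nat hi 1
    rw [key t ht, if_neg hl.symm, mul_zero, zero_add] at ha
    rw [key t ht, if_pos rfl, mul_one, ha] at hb
    rw [inv_mul_eq_iff_eq_mul₀ v0] at ha
    have a0 : a ≠ 0 := by
      rintro rfl
      exact n (sub_eq_zero.1 (by simpa using ha)).symm
    have : D + a = Nat.card T * a + b := by
      have : (D : ℂ) + a = Nat.card T * a + b := by rw [← hD, ← ha, ← hb]; ring
      exact_mod_cast this
    obtain ⟨a, rfl⟩ := Nat.exists_eq_succ_of_ne_zero a0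
    have : 0 < Nat.card T := Nat.card_pos
    nlinarith

end Cfsg.Agent.SNG
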