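import Cfsg.Agent.SNG.Defs

set_option autoImplicit false
set_option linter.unusedSectionVars false

namespace Cfsg.Agent.SNG

open MulAction Module Submodule

variable {F : Type*} [Field F] [Fintype F] {p : ℕ} [Fact p.Prime] [CharP F p]
  {G : Type*} [Group G] {V : Type*} [AddCommGroup V] [Module F V] [DistribMulAction G V]
  [SMulCommClass G F V] [Finite V]

variable (G) in
/-- the affine maps induced on the plane `⟨a, b⟩` -/
def LTa (a b : V) (α β : F) : Prop := ∃ g : G, g • a = a ∧ g • b = α • b + β • a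

theorem LTa.mul {a b : V} {α β α' β' : F} (h : LTa G a b α β) (h' : LTa G a b α' β') :
    LTa G a b (α * α') (α' * β + β') := by
  obtain ⟨g, h1, h2⟩ := h
  obtain ⟨g', h1', h2'⟩ := h'
  refine ⟨g * g', by rw [mul_smul, h1', h1], ?_⟩
  rw [mul_smul, h2', smul_add, gs, gs, h1, h2]; module

theorem LTa.ne {a b : V} (hb : b ∉ span F {a}) {α β : F} (h : LTa G a b α β) : α ≠ 0 := by
  rintro rfl
  obtain ⟨g, h1, h2⟩ := h
  refine hb (mem_span_singleton.2 ⟨β, smul_inj (g := g) ?_⟩)
  rw [h2, gs, h1, zero_smul, zero_add]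

theorem LTa.inv {a b : V} (hb : b ∉ span F {a}) {α β : F} (h : LTa G a b α β) :
    LTa G a b α⁻¹ (-(α⁻¹ * β)) := by
  have h0 := h.ne hb
  obtain ⟨g, h1, h2⟩ := h
  refine ⟨g⁻¹, inv_smul_eq_iff.2 h1.symm, inv_smul_eq_iff.2 ?_⟩
  rw [smul_add, gs, gs, h1, h2, smul_add, smul_smul, smul_smul, inv_mul_cancel₀ h0]; module

open Classical in
theorem LTa.card {a b : V} (a0 : a ≠ 0) (hb : b ∉ span F {a})
    (h : Fintype.card F ^ (finrank F V - 1) ≤ (orbit (stabilizer G a) b).ncard) :
    Fintype.card F ≤ (Finset.univ.filter fun x : F × F => LTa G a b x.1 x.2).card := by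
  have : Fintype V := Fintype.ofFinite V
  have : Fintype (V ⧸ span F {a}) := Fintype.ofFinite _
  have key := Finset.card_le_mul_card_image_of_maps_to
    (s := (orbit (stabilizer G a) b).toFinset ×ˢ (Finset.univ.erase (0 : F)))
    (t := Finset.univ.erase (0 : V ⧸ span F {a})) (f := fun x => Submodule.Quotient.mk (x.2 • x.1))
    (fun x hx => by
      obtain ⟨h1, h2⟩ := Finset.mem_product.1 hx
      obtain ⟨g, hg⟩ := Set.mem_toFinset.1 h1
      refine Finset.mem_erase.2 ⟨fun e => hb ?_, Finset.mem_univ _⟩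
      rw [Submodule.Quotient.mk_eq_zero, smul_mem_iff _ (Finset.mem_erase.1 h2).1, ← hg] at e
      exact (smul_mem_l1 (g : G)).1 (by rw [show (g : G) • a = a from g.2]; exact e))
    (Finset.univ.filter fun x : F × F => LTa G a b x.1 x.2).card (fun w _ => by
      rcases Finset.eq_empty_or_nonempty (Finset.filter (fun x : V × F =>
        (Submodule.Quotient.mk (x.2 • x.1) : V ⧸ span F {a}) = w)
        ((orbit (stabilizer G a) b).toFinset ×ˢ (Finset.univ.erase (0 : F)))) with e | ⟨y, hy⟩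
      · rw [e]; exact Nat.zero_le _
      refine (Finset.card_le_card fun x hx => ?_).trans
        (Finset.card_image_le (f := fun z : F × F => (z.1 • y.1 + z.2 • a, y.2 / z.1)))
      obtain ⟨hy1, hy2⟩ := Finset.mem_filter.1 hy
      obtain ⟨hx1, hx2⟩ := Finset.mem_filter.1 hx
      obtain ⟨g, hg⟩ := Set.mem_toFinset.1 (Finset.mem_product.1 hy1).1
      obtain ⟨k, hk⟩ := Set.mem_toFinset.1 (Finset.mem_product.1 hx1).1
      have y0 := (Finset.mem_erase.1 (Finset.mem_product.1 hy1).2).1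
      have x0 := (Finset.mem_erase.1 (Finset.mem_product.1 hx1).2).1
      obtain ⟨c, hc⟩ := mem_span_singleton.1 ((Submodule.Quotient.eq _).1 (hx2.trans hy2.symm))
      have e : x.1 = (y.2 / x.2) • y.1 + (c / x.2) • a := by
        rw [div_eq_inv_mul, div_eq_inv_mul, mul_smul, mul_smul, hc, ← smul_add, add_sub_cancel, smul_smul,
          inv_mul_cancel₀ x0, one_smul]
      refine Finset.mem_image.2 ⟨(y.2 / x.2, c / x.2), Finset.mem_filter.2 ⟨Finset.mem_univ _,
        ((g⁻¹ * k : stabilizer G a) : G), (g⁻¹ * k).2, ?_⟩, Prod.ext e.symm (by field_simp)⟩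
      rw [Subgroup.coe_mul, mul_smul, Subgroup.coe_inv, inv_smul_eq_iff, smul_add, gs, gs,
        show (g : G) • a = a from g.2, show (g : G) • b = y.1 from hg, show (k : G) • b = x.1 from hk]
      exact e)
  have c1 : Fintype.card (V ⧸ span F {a}) = Fintype.card F ^ (finrank F V - 1) := by
    rw [← Nat.card_eq_fintype_card, card_top_eq_pow (F := F), ← rk_quot a0]; rfl
  rw [Finset.card_product, Finset.card_erase_of_mem (Finset.mem_univ _),
    Finset.card_erase_of_mem (Finset.mem_univ _), Finset.card_univ, Finset.card_univ, c1,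
    ← Set.ncard_eq_toFinset_card'] at key
  by_contra c
  have h1 : 1 < Fintype.card F := Fintype.one_lt_card
  have h2 : 0 < Fintype.card F ^ (finrank F V - 1) := by positivity
  have h3 := (Nat.mul_le_mul_right (Fintype.card F - 1) h).trans (key.trans
    (Nat.mul_le_mul_right _ (Nat.le_sub_one_of_lt (not_le.1 c))))
  rw [mul_comm] at h3
  have := Nat.le_of_mul_le_mul_left h3 (by omega)
  omega

theorem lt_of_big {a b : V} (a0 : a ≠ 0) (hb : b ∉ span F {a})
    (h : Fintype.card F ^ (finrank F V - 1) ≤ (orbit (stabilizer G a) b).ncard) : LT F G a b := by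
  classical
  intro γ
  suffices LTa G a b 1 γ by simpa [LTa] using this
  by_contra hγ
  have c0 := LTa.card a0 hb h
  obtain ⟨U, hU⟩ : ∃ U : Finset F, ∀ β, β ∈ U ↔ LTa G a b 1 β :=
    ⟨Finset.univ.filter fun β => LTa G a b 1 β, by simp⟩
  obtain ⟨D, hD⟩ : ∃ D : Finset F, ∀ α, α ∈ D ↔ ∃ β, LTa G a b α β :=
    ⟨Finset.univ.filter fun α => ∃ β, LTa G a b α β, by simp⟩
  have sub : ∀ {α β β' : F}, LTa G a b α β → LTa G a b α β' → β - β' ∈ U := fun {α β β'} h1 h2 => by
    have := (h2.inv hb).mul h1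
    rw [inv_mul_cancel₀ (h1.ne hb)] at this
    rw [hU]; convert this using 1; field_simp [h1.ne hb]; ring
  have c1 : (Finset.univ.filter fun x : F × F => LTa G a b x.1 x.2).card ≤ U.card * D.card := by
    refine Finset.card_le_mul_card_image_of_maps_to (f := Prod.fst)
      (fun x hx => (hD _).2 ⟨_, (Finset.mem_filter.1 hx).2⟩) _ fun α hα => ?_
    obtain ⟨β, hβ⟩ := (hD α).1 hα
    refine (Finset.card_le_card fun x hx => ?_).trans (Finset.card_image_le (f := fun u => (α, u + β)))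
    obtain ⟨h1, rfl⟩ := Finset.mem_filter.1 hx
    exact Finset.mem_image.2 ⟨_, sub (Finset.mem_filter.1 h1).2 hβ, Prod.ext rfl (sub_add_cancel _ _)⟩
  have U0 : (0 : F) ∈ U := (hU 0).2 ⟨1, one_smul _ _, by simp⟩
  have Us : ∀ u ∈ U, ∀ v ∈ U, u - v ∈ U := fun u hu v hv => sub ((hU u).1 hu) ((hU v).1 hv)
  have DU : ∀ α ∈ insert 0 D, ∀ u ∈ U, α * u ∈ U := fun α hα u hu => by
    rcases Finset.mem_insert.1 hα with rfl | hα
    · rwa [zero_mul]
    obtain ⟨β, hβ⟩ := (hD α).1 hα
    have := sub (((hU u).1 hu).mul hβ) (by rwa [one_mul])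
    rwa [add_sub_cancel_right] at this
  have c2 := Finset.card_le_card_of_injOn (s := insert 0 D ×ˢ U) (t := Finset.univ)
    (fun x => x.1 * γ + x.2) (fun _ _ => Finset.mem_coe.2 (Finset.mem_univ _)) fun x hx y hy e => by
      obtain ⟨x1, x2⟩ := Finset.mem_product.1 (Finset.mem_coe.1 hx)
      obtain ⟨y1, y2⟩ := Finset.mem_product.1 (Finset.mem_coe.1 hy)
      have e1 : x.1 = y.1 := by
        by_contra c
        have m0 := sub_ne_zero.2 c
        obtain ⟨u, hu, e2⟩ := Finset.surj_on_of_inj_on_of_card_le (s := U) (t := U)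
          (fun u _ => (x.1 - y.1) * u) (fun u hu => by
            rw [sub_mul]; exact Us _ (DU _ x1 u hu) _ (DU _ y1 u hu))
          (fun _ _ _ _ e => mul_left_cancel₀ m0 e) le_rfl _ (Us _ y2 _ x2)
        have e3 : u = γ := mul_left_cancel₀ m0 (by linear_combination -e2 - e)
        exact hγ ((hU γ).1 (e3 ▸ hu))
      refine Prod.ext e1 ?_
      simp only [e1] at e
      exact add_left_cancel e
  rw [Finset.card_product, Finset.card_insert_of_notMem (fun c => by
    obtain ⟨β, hβ⟩ := (hD 0).1 c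
    exact hβ.ne hb rfl), Finset.card_univ] at c2
  have := Finset.card_pos.2 ⟨0, U0⟩
  nlinarith

set_option linter.unusedVariables false in
theorem LT.smul {a b : V} (h : LT F G a b) {c d : F} (hc : c ≠ 0) (hd : d ≠ 0) :
    LT F G (c • a) (d • b) := fun β => by
  obtain ⟨g, h1, h2⟩ := h (d⁻¹ * (β * c))
  refine ⟨g, by rw [gs, h1], ?_⟩
  rw [gs, h2, smul_add, smul_smul, smul_smul, mul_inv_cancel_left₀ hd]

theorem LT.shift {u v : V} (h : LT F G u v) {l : F} (hl : l ≠ 0) (m : F) : LT F G u (l • v + m • u) :=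
  fun β => by
    obtain ⟨g, h1, h2⟩ := h (l⁻¹ * β)
    refine ⟨g, h1, ?_⟩
    rw [smul_add, gs, gs, h1, h2, smul_add, smul_smul, mul_inv_cancel_left₀ hl]; module

theorem LT.plane {a b : V} (h1 : LT F G a b) (h2 : LT F G b a) {u w : V} (hu : u ∈ span F {a, b})
    (hw : w ∈ span F {a, b}) (u0 : u ≠ 0) (hw' : w ∉ span F {u}) : LT F G u w := by
  obtain ⟨α, β, rfl⟩ := mem_span_pair.1 hu
  obtain ⟨α', β', rfl⟩ := mem_span_pair.1 hw
  have fin : ∀ (v : V) (l m : F), LT F G (α • a + β • b) v →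
      α' • a + β' • b = l • v + m • (α • a + β • b) → LT F G (α • a + β • b) (α' • a + β' • b) :=
    fun v l m h e => by
      rw [e] at hw' ⊢
      refine h.shift (fun c => hw' ?_) m
      rw [c, zero_smul, zero_add]
      exact smul_mem _ _ (self_l1 _)
  by_cases c : β = 0
  · subst c
    have α0 : α ≠ 0 := fun e => u0 (by simp [e])
    refine fin b β' (α' / α) (by simpa using h1.smul α0 one_ne_zero) ?_
    rw [zero_smul, add_zero, smul_smul, div_mul_cancel₀ _ α0, add_comm]
  · obtain ⟨g, g1, g2⟩ := h1 (β⁻¹ * α)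
    have e : g • β • b = α • a + β • b := by
      rw [gs, g2, smul_add, smul_smul, mul_inv_cancel_left₀ c, add_comm]
    refine fin a (α' - β' / β * α) (β' / β) (fun δ => ?_) ?_
    · obtain ⟨k, k1, k2⟩ := h2.smul c one_ne_zero δ
      rw [one_smul] at k2
      refine ⟨g * k * g⁻¹, by rw [← e, mul_smul, inv_smul_smul, mul_smul, k1], ?_⟩
      rw [← e, mul_smul, inv_smul_eq_iff.2 g1.symm, mul_smul, k2, smul_add, g1, gs]
    · rw [smul_add, smul_smul, smul_smul, div_mul_cancel₀ _ c]; module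

theorem trans_of_lt (h2 : 2 ≤ finrank F V)
    (hlt : ∀ a b : V, a ≠ 0 → b ∉ span F {a} → LT F G a b) {a b : V} (ha : a ≠ 0) (hb : b ≠ 0) :
    ∃ g : G, g • a = b := by
  have key : ∀ a b : V, a ≠ 0 → b ∉ span F {a} → ∃ g : G, g • a = b := fun a b ha hb => by
    have h1 : b - a ∉ span F {a} := fun c => hb (by simpa using add_mem c (self_l1 a))
    obtain ⟨g, -, e⟩ := hlt (b - a) a (ne0_of_notMem h1) (notMem_l1_symm ha h1) 1
    exact ⟨g, by rw [e, one_smul, add_sub_cancel]⟩
  by_cases c : b ∈ span F {a}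
  · obtain ⟨v, -, hv⟩ := exists_notMem (A := span F {a}) (B := ⊤) (by
      rw [finrank_span_singleton ha, finrank_top]; omega)
    obtain ⟨g, e⟩ := key a v ha hv
    obtain ⟨k, e'⟩ := key v b (ne0_of_notMem hv) (notMem_l1_symm hb fun h => hv (l1_le c h))
    exact ⟨k * g, by rw [mul_smul, e, e']⟩
  · exact key a b ha c

end Cfsg.Agent.SNG
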