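import Cfsg.Agent.SNG.Sing
import Cfsg.Agent.SNG.Col
import Mathlib.FieldTheory.Finite.GaloisField

set_option autoImplicit false
set_option linter.unusedSectionVars false

namespace Cfsg.Agent.SNG

open MulAction Module
open scoped ComplexConjugate

variable {F L : Type*} [Field F] [Fintype F] [Field L] [Algebra F L] [Finite L]
  {G : Subgroup (L ≃ₗ[F] L)}

theorem finite_gl : Finite (L ≃ₗ[F] L) :=
  Finite.of_injective (fun g => (g : L → L)) DFunLike.coe_injective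

theorem mem_sg {U : Subgroup Lˣ} {g : G} : g ∈ sg G U ↔ ∃ u ∈ U, mu F L u = g :=
  Subgroup.mem_subgroupOf.trans Subgroup.mem_map

namespace SingB

theorem map_le (h : Ov G) {U : Subgroup Lˣ} (hU : U ≤ C0 F L) : U.map (mu F L) ≤ G := by
  rintro _ ⟨u, hu, rfl⟩
  exact h.mem u (hU hu)

theorem T0_le : T0 F L ≤ C0 F L := inf_le_left

theorem Z0_le : Z0 F L ≤ C0 F L := inf_le_left

theorem one_lt {q n d v : ℕ} (h : Num q n d v) : v ≠ 1 := by
  rintro rfl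
  have h1 := h.eq
  have h2 := h.q2
  have h3 : d ≤ q - 1 := Nat.le_of_dvd (by omega) h.dq
  have h4 : q ^ 3 ≤ q ^ n := Nat.pow_le_pow_right (by omega) (by have := h.n11; omega)
  obtain ⟨r, rfl⟩ : ∃ r, q = r + 1 := ⟨q - 1, by omega⟩
  simp only [Nat.add_sub_cancel, mul_one] at h1 h3
  have h5 : d * r ≤ r * r := Nat.mul_le_mul_right r h3
  have h6 : 1 ≤ r := by omega
  nlinarith

theorem exists_t (hn : (finrank F L).Prime) (h11 : 11 ≤ finrank F L) :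
    ∃ t ∈ T0 F L, ∀ c : F, algebraMap F L c ≠ (t : L) := by
  obtain ⟨⟨t, ht⟩, h1⟩ := (Subgroup.ne_bot_iff_exists_ne_one (H := T0 F L)).1 fun h =>
    one_lt (num hn h11) (by rw [h, Subgroup.card_bot])
  refine ⟨t, ht, fun c hc => h1 (Subtype.ext ?_)⟩
  have : t ∈ T0 F L ⊓ S0 F L := ⟨ht, mem_S0.2 ⟨c, hc⟩⟩
  rwa [T0_inf_S0 hn h11, Subgroup.mem_bot] at this

theorem mem_C (h : Ov G) {g : G} (hg : ∀ x, (g : L ≃ₗ[F] L) x = (g : L ≃ₗ[F] L) 1 * x) :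
    g ∈ sg G (C0 F L) := by
  have h0 : (g : L ≃ₗ[F] L) 1 ≠ 0 := by simp
  have h1 : mu F L (Units.mk0 _ h0) = g := LinearEquiv.ext fun x => (hg x).symm
  refine mem_sg.2 ⟨_, mem_C0.2 ?_, h1⟩
  rw [← det_mu, h1]
  exact h.det _ g.2

theorem semi (h : Ov G) (hn : (finrank F L).Prime) (h11 : 11 ≤ finrank F L) {g : G}
    (hg : g ∈ Subgroup.normalizer (sg G (T0 F L) : Set G)) (u x : L) :
    (g : L ≃ₗ[F] L) (u * x) = (g : L ≃ₗ[F] L) (u * (g : L ≃ₗ[F] L).symm 1) * (g : L ≃ₗ[F] L) x := by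
  obtain ⟨t, ht, hc⟩ := exists_t hn h11
  have hu : u ∈ Algebra.adjoin F {(t : L)} := adjoin_top hn hc ▸ Algebra.mem_top
  suffices H : ∃ u', ∀ x, (g : L ≃ₗ[F] L) (u * x) = u' * (g : L ≃ₗ[F] L) x by
    obtain ⟨u', hu'⟩ := H
    rw [hu', hu', LinearEquiv.apply_symm_apply, mul_one]
  induction hu using Algebra.adjoin_induction with
  | mem y hy =>
    obtain rfl : y = t := hy
    obtain ⟨t', -, h1⟩ := mem_sg.1 ((Subgroup.mem_normalizer_iff.1 hg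
      ⟨mu F L t, h.mem t (T0_le ht)⟩).1 (mem_sg.2 ⟨t, ht, rfl⟩))
    refine ⟨t', fun x => ?_⟩
    have h2 := LinearEquiv.congr_fun h1 ((g : L ≃ₗ[F] L) x)
    rw [mu_apply] at h2
    rw [h2]
    simp [mu_apply]
  | algebraMap c => exact ⟨algebraMap F L c, fun x => by
      rw [← Algebra.smul_def, map_smul, Algebra.smul_def]⟩
  | add a b _ _ ha hb =>
    obtain ⟨a', ha⟩ := ha
    obtain ⟨b', hb⟩ := hb
    exact ⟨a' + b', fun x => by rw [add_mul, map_add, ha, hb, add_mul]⟩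
  | mul a b _ _ ha hb =>
    obtain ⟨a', ha⟩ := ha
    obtain ⟨b', hb⟩ := hb
    exact ⟨a' * b', fun x => by rw [mul_assoc, ha, hb, mul_assoc]⟩

theorem idx_dvd (h : Ov G) (hn : (finrank F L).Prime) (h11 : 11 ≤ finrank F L) :
    (sg G (C0 F L)).relIndex (Subgroup.normalizer (sg G (T0 F L) : Set G)) ∣ finrank F L := by
  let N := Subgroup.normalizer (sg G (T0 F L) : Set G)
  have h1 : ∀ g : N, ∃ σ : L ≃ₐ[F] L, ∀ u x,
      ((g : G) : L ≃ₗ[F] L) (u * x) = σ u * ((g : G) : L ≃ₗ[F] L) x := fun g => by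
    let a : L →ₐ[F] L := AlgHom.ofLinearMap (((g : G) : L ≃ₗ[F] L).toLinearMap ∘ₗ
      LinearMap.mulRight F (((g : G) : L ≃ₗ[F] L).symm 1)) (by simp) fun u v => by
        simp only [LinearMap.comp_apply, LinearMap.mulRight_apply, LinearEquiv.coe_coe]
        rw [mul_assoc, semi h hn h11 g.2]
    exact ⟨AlgEquiv.ofBijective a a.bijective, fun u x => semi h hn h11 g.2 u x⟩
  choose σ hσ using h1
  have h0 : ∀ g : L ≃ₗ[F] L, g 1 ≠ 0 := fun g => by simp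
  let φ : N →* (L ≃ₐ[F] L) := MonoidHom.mk' σ fun a b => AlgEquiv.ext fun u => by
    refine mul_right_cancel₀ (h0 ((a * b : N) : G)) ?_
    rw [← hσ]
    change ((a : G) : L ≃ₗ[F] L) (((b : G) : L ≃ₗ[F] L) (u * 1)) =
      σ a (σ b u) * ((a : G) : L ≃ₗ[F] L) (((b : G) : L ≃ₗ[F] L) 1)
    rw [hσ, hσ]
  have hk : (sg G (C0 F L)).subgroupOf N = φ.ker := by
    ext g
    rw [Subgroup.mem_subgroupOf, MonoidHom.mem_ker]
    refine ⟨fun hg => AlgEquiv.ext fun u => ?_, fun hg => mem_C h fun x => ?_⟩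
    · obtain ⟨c, -, hc⟩ := mem_sg.1 hg
      refine mul_right_cancel₀ (h0 (g : G)) ?_
      change σ g u * _ = u * _
      rw [← hσ, ← hc, mu_apply, mu_apply]
      ring
    · have h2 := hσ g x 1
      rw [mul_one, show σ g = 1 from hg] at h2
      rw [h2, mul_comm]
      rfl
  rw [Subgroup.relIndex, hk, Subgroup.index_ker, ← IsGalois.card_aut_eq_finrank]
  exact Subgroup.card_subgroup_dvd_card _

end SingB

open SingB

theorem Ov.card_sg (h : Ov G) {U : Subgroup Lˣ} (hU : U ≤ C0 F L) :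
    Nat.card (sg G U) = Nat.card U :=
  (Nat.card_congr (Subgroup.subgroupOfEquivOfLe (map_le h hU)).toEquiv).trans
    (Subgroup.card_map_of_injective mu_inj)

theorem Ov.sg_sup (h : Ov G) (hn : (finrank F L).Prime) (h11 : 11 ≤ finrank F L) :
    sg G (T0 F L) ⊔ sg G (Z0 F L) = sg G (C0 F L) := by
  rw [← T0_sup_Z0 hn h11, sg, sg, sg, Subgroup.map_sup,
    Subgroup.subgroupOf_sup (map_le h T0_le) (map_le h Z0_le)]

theorem Ov.cc (h : Ov G) (hn : (finrank F L).Prime) (h11 : 11 ≤ finrank F L) :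
    ∃ e, e ∣ finrank F L ∧ CC (sg G (T0 F L)) (sg G (Z0 F L)) e := by
  refine ⟨_, idx_dvd h hn h11, fun z hz => ?_, fun a ha b hb => ?_, ?_, fun c hc hz g hg => ?_,
    by rw [h.sg_sup hn h11]⟩
  · obtain ⟨u, hu, h1⟩ := mem_sg.1 hz
    obtain ⟨c, hc, -⟩ := mem_Z0.1 hu
    refine Subgroup.mem_center_iff.2 fun g => Subtype.ext (LinearEquiv.ext fun x => ?_)
    change (g : L ≃ₗ[F] L) ((z : L ≃ₗ[F] L) x) = (z : L ≃ₗ[F] L) ((g : L ≃ₗ[F] L) x)
    rw [← h1, mu_apply, mu_apply, ← hc, ← Algebra.smul_def, map_smul, Algebra.smul_def]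
  · obtain ⟨u, -, h1⟩ := mem_sg.1 ha
    obtain ⟨v, -, h2⟩ := mem_sg.1 hb
    refine Subtype.ext ?_
    rw [Subgroup.coe_mul, Subgroup.coe_mul, ← h1, ← h2, ← map_mul, ← map_mul, mul_comm]
  · rw [h.card_sg T0_le, h.card_sg Z0_le]
    rcases (num hn h11).d1 with h1 | h1 <;> rw [h1]
    · exact Nat.coprime_one_right _
    · exact (num hn h11).cn
  · rw [h.sg_sup hn h11] at hc ⊢
    obtain ⟨u, hu, h1⟩ := mem_sg.1 hc
    refine mem_C h (comm_mul hn (u := u) (g := ((g : L ≃ₗ[F] L) : L →ₗ[F] L))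
      (fun c hc => hz (mem_sg.2 ⟨u, ⟨hu, mem_S0.2 ⟨c, hc⟩⟩, h1⟩)) fun x => ?_)
    have h2 := LinearEquiv.congr_fun (congrArg Subtype.val hg) x
    rw [Subgroup.coe_mul, Subgroup.coe_mul, ← h1] at h2
    exact h2

theorem Ov.exists_min (h : Ov G) (hn : (finrank F L).Prime) (h11 : 11 ≤ finrank F L)
    (hnn : ¬ (sg G (T0 F L)).Normal) : ∃ G' ≤ G, MinOv G' := by
  have := finite_gl (F := F) (L := L)
  obtain ⟨H, ⟨h1, h2, h3⟩, hm⟩ := wellFounded_lt.has_min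
    {H : Subgroup (L ≃ₗ[F] L) | H ≤ G ∧ Ov H ∧ ¬ (sg H (T0 F L)).Normal} ⟨G, le_rfl, h, hnn⟩
  refine ⟨H, h1, h2, h3, fun N hN hT hZ => ?_⟩
  by_contra hne
  have hC : sg H (C0 F L) ≤ N := h2.sg_sup hn h11 ▸ sup_le hT hZ
  have hle : N.map H.subtype ≤ H := Subgroup.map_subtype_le N
  have hO : Ov (N.map H.subtype) := ⟨fun g hg => h2.det g (hle hg), fun u hu =>
    ⟨⟨_, h2.mem u hu⟩, hC (mem_sg.2 ⟨u, hu, rfl⟩), rfl⟩⟩
  have hlt : N.map H.subtype < H := lt_of_le_of_ne hle fun e => hne (eq_top_iff.2 fun g _ => by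
    obtain ⟨g', hg', h4⟩ := (e.symm ▸ g.2 : (g : L ≃ₗ[F] L) ∈ N.map H.subtype)
    exact (Subtype.ext h4 : g' = g) ▸ hg')
  have hnor : (sg (N.map H.subtype) (T0 F L)).Normal := by
    by_contra h4
    exact hm _ ⟨hle.trans h1, hO, h4⟩ hlt
  have hNN : N ≤ Subgroup.normalizer (sg H (T0 F L) : Set H) := by
    refine Subgroup.le_normalizer_iff.2 fun g hg t ht => ?_
    obtain ⟨u, hu, h4⟩ := mem_sg.1 ht
    obtain ⟨v, hv, h5⟩ := mem_sg.1 (hnor.conj_mem ⟨t, t, hT ht, rfl⟩ (mem_sg.2 ⟨u, hu, h4⟩)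
      ⟨g, g, hg, rfl⟩)
    exact mem_sg.2 ⟨v, hv, h5⟩
  obtain ⟨e, he, hcc⟩ := h2.cc hn h11
  refine h3 ⟨fun t ht g => ?_⟩
  have h4 : (g * t * g⁻¹) ^ Nat.card (sg H (T0 F L)) = 1 := by
    rw [conj_pow, ← Subgroup.coe_mk (sg H (T0 F L)) t ht, ← Subgroup.coe_pow, pow_card_eq_one']
    simp
  refine hcc.mem_T (Subgroup.zpowers_le.2 (hcc.pow_mem (hNN (hN.conj_mem t (hT ht) g)))
    (mem_zpowers_pow_iff.2 ?_)) h4
  refine (Nat.Coprime.coprime_dvd_left he ?_).coprime_dvd_right (orderOf_dvd_of_pow_eq_one h4)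
  rw [h2.card_sg T0_le]
  exact (num hn h11).cn.symm

end Cfsg.Agent.SNG
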