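import Cfsg.Agent.SNG.Big
import Cfsg.Agent.SNG.LT
import Cfsg.Agent.SNG.Norm
import Cfsg.Agent.SNG.SingB
import Mathlib.Algebra.Pointwise.Stabilizer

set_option autoImplicit false
set_option linter.unusedSectionVars false

namespace Cfsg.Agent.SNG

open MulAction Module
open scoped ComplexConjugate Pointwise

variable {F L : Type*} [Field F] [Fintype F] [Field L] [Algebra F L] [Finite L]
  {G : Subgroup (L ≃ₗ[F] L)}

theorem good_eigen {V : Type*} [AddCommGroup V] [Module F V] {f : Module.End F V} {n : ℕ} {ζ : F}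
    (hn : 0 < n) (hζ : IsPrimitiveRoot ζ n) (h : f ^ n = 1) (h1 : f ≠ 1) :
    ∃ ω : F, ω ^ n = 1 ∧ ω ≠ 1 ∧ ∃ a, a ≠ 0 ∧ f a = ω • a := by
  have := Classical.decEq F
  by_contra hc
  push Not at hc
  have k := Finset.prod_induction (s := (Polynomial.nthRootsFinset n (1 : F)).erase 1)
    (fun ω => Polynomial.X - Polynomial.C ω) (fun P => Function.Injective (Polynomial.aeval f P))
    (fun a b ha hb => by rw [map_mul]; exact ha.comp hb) (by rw [map_one]; exact fun _ _ e => e)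
    fun ω hω => (injective_iff_map_eq_zero _).2 fun a ha => by
      by_contra a0
      rw [Finset.mem_erase, Polynomial.mem_nthRootsFinset hn] at hω
      exact hc ω hω.2 hω.1 a a0 (by simpa [sub_eq_zero] using ha)
  have e := congrArg (Polynomial.aeval f) (Polynomial.X_pow_sub_one_eq_prod hn hζ)
  rw [← Finset.prod_erase_mul _ _ ((Polynomial.mem_nthRootsFinset hn 1).2 (one_pow n)), map_mul,
    map_sub, map_pow, Polynomial.aeval_X, h, map_one, sub_self] at e
  refine h1 (LinearMap.ext fun y => ?_)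
  have := k (a₁ := Polynomial.aeval f (Polynomial.X - Polynomial.C (1 : F)) y) (a₂ := 0)
    (by rw [map_zero, ← Module.End.mul_apply, ← e, LinearMap.zero_apply])
  simpa [sub_eq_zero] using this

theorem good_lin (g : G) {z : Lˣ} (hz : z ∈ S0 F L) (a : L) : g • ((z : L) * a) = z * g • a := by
  obtain ⟨c, hc⟩ := mem_S0.1 hz
  rw [← hc, ← Algebra.smul_def, ← Algebra.smul_def]
  exact map_smul (g : L ≃ₗ[F] L) c a

theorem good_of_one (hn : (finrank F L).Prime) {a : L} (a0 : a ≠ 0) {z : Lˣ} (hz : z ∈ Z0 F L)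
    (z1 : z ≠ 1) {g : G} (hg : g ∈ Subgroup.normalClosure (sg G (T0 F L) : Set G))
    (e : g • a = z * a) : Good G a := by
  have hc : Nat.card (Z0 F L) ≠ 1 := fun k => z1 (Subgroup.mem_bot.1 (Subgroup.card_eq_one.1 k ▸ hz))
  have : Fact (Nat.card (Z0 F L)).Prime := ⟨(dvd_of_Z0 hn hc).1 ▸ hn⟩
  refine ⟨a0, fun y hy => ?_⟩
  obtain ⟨k, hk⟩ := mem_powers_iff_mem_zpowers.2 (mem_zpowers_of_prime_card (G := Z0 F L) rfl
    (g := ⟨z, hz⟩) (g' := ⟨y, hy⟩) fun k => z1 (congrArg Subtype.val k))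
  obtain rfl : z ^ k = y := congrArg Subtype.val hk
  refine ⟨g ^ k, pow_mem hg k, ?_⟩
  clear hk hy
  induction k with
  | zero => simp
  | succ k ih => rw [pow_succ, mul_smul, e, good_lin _ hz.2, ih, pow_succ', Units.val_mul, mul_assoc]

theorem MinOv.exists_good (h : MinOv G) (hn : (finrank F L).Prime) (h11 : 11 ≤ finrank F L) :
    ∃ a, Good G a := by
  by_cases hc : Nat.card (Z0 F L) = 1
  · exact ⟨1, one_ne_zero, fun z hz => ⟨1, one_mem _, by
      rw [show z = 1 from (Subgroup.card_eq_one.1 hc).le hz]; simp⟩⟩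
  have := finite_gl (F := F) (L := L)
  have cc := h.cc hn h11
  have hZ : (sg G (Z0 F L)).Normal := ⟨fun z hz g => by
    rw [Subgroup.mem_center_iff.1 (cc.zc hz) g, mul_inv_cancel_right]; exact hz⟩
  obtain ⟨g, hg, hg'⟩ := SetLike.not_le_iff_exists.1 fun k =>
    hn.ne_one (cc.idx.symm.trans (Subgroup.relIndex_eq_one.2 k))
  obtain ⟨g0, h0, z, hz, rfl⟩ := Subgroup.mem_sup_of_normal_right.1
    ((h.gen (Subgroup.normalClosure (sg G (T0 F L) : Set G) ⊔ sg G (Z0 F L)) inferInstance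
      (Subgroup.le_normalClosure.trans le_sup_left) le_sup_right).ge (Subgroup.mem_top g))
  rw [mul_mem_cancel_right (Subgroup.center_le_normalizer _ (cc.zc hz))] at hg
  rw [mul_mem_cancel_right (Subgroup.mem_sup_right hz)] at hg'
  obtain ⟨u, hu, e⟩ := mem_sg.1 (by_contra fun k =>
    hg' (cc.cent _ (cc.pow_mem hg) k g0 (Commute.self_pow g0 _)))
  by_cases u1 : u = 1
  · obtain ⟨y, hy, y1⟩ := (Subgroup.bot_or_exists_ne_one (Z0 F L)).resolve_left fun k =>
      hc (Subgroup.card_eq_one.2 k)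
    obtain ⟨c, c1, c2⟩ := mem_Z0.1 hy
    have : Fact (finrank F L).Prime := ⟨hn⟩
    obtain ⟨ω, w1, w2, a, a0, ha⟩ := good_eigen (f := ((g0 : L ≃ₗ[F] L) : L →ₗ[F] L)) hn.pos
      (orderOf_eq_prime c2 (fun k => y1 (Units.ext (by rw [← c1, k, map_one, Units.val_one]))) ▸
        IsPrimitiveRoot.orderOf c)
      ((map_pow LinearEquiv.automorphismGroup.toLinearMapMonoidHom _ _).symm.trans (by
        rw [← Subgroup.coe_pow, ← e, u1, map_one, map_one]))
      fun k => hg' (by
        rw [show g0 = 1 from Subtype.ext (LinearEquiv.toLinearMap_injective k)]; exact one_mem _)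
    have w0 : algebraMap F L ω ≠ 0 := (map_ne_zero _).2 fun k => by
      rw [k, zero_pow hn.ne_zero] at w1; exact zero_ne_one w1
    exact ⟨a, good_of_one hn a0 (z := Units.mk0 _ w0) (mem_Z0.2 ⟨ω, rfl, w1⟩) (fun k => w2
      ((algebraMap F L).injective ((congrArg Units.val k).trans (map_one _).symm))) h0
      (ha.trans (Algebra.smul_def _ _))⟩
  · exact ⟨1, good_of_one hn one_ne_zero hu u1 (pow_mem h0 (finrank F L))
      (LinearEquiv.congr_fun e 1).symm⟩

theorem Good.smul {a : L} (h : Good G a) (g : G) : Good G (g • a) :=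
  ⟨smul_ne h.1, fun z hz => by
    obtain ⟨k, hk, e⟩ := h.2 z hz
    exact ⟨g * k * g⁻¹, Subgroup.Normal.conj_mem inferInstance k hk g, by
      rw [mul_smul, inv_smul_smul, mul_smul, e, good_lin _ hz.2]⟩⟩

theorem Good.scal {a : L} (h : Good G a) {u : Lˣ} (hu : u ∈ S0 F L) : Good G (u * a) :=
  ⟨mul_ne_zero u.ne_zero h.1, fun z hz => by
    obtain ⟨k, hk, e⟩ := h.2 z hz
    exact ⟨k, hk, by rw [good_lin _ hu, e, mul_left_comm]⟩⟩

theorem MinOv.good (h : MinOv G) (hn : (finrank F L).Prime) (h11 : 11 ≤ finrank F L) {a : L}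
    (a0 : a ≠ 0) : Good G a := by
  obtain ⟨b, hb⟩ := h.exists_good hn h11
  let Γ := stabilizer Lˣ {x | Good G x}
  have mΓ : ∀ u : Lˣ, u ∈ Γ ↔ ∀ x, Good G x → Good G (u * x) := fun u =>
    (mem_stabilizer_set_iff_smul_set_subset (Set.toFinite _)).trans Set.smul_set_subset_iff
  have hC : ∀ {u x}, u ∈ C0 F L → Good G x → Good G (u * x) := fun hu hx => hx.smul ⟨_, h.mem _ hu⟩
  have hD : C0 F L ⊔ S0 F L ≤ Γ := sup_le (fun u hu => (mΓ u).2 fun _ => hC hu)
    fun u hu => (mΓ u).2 fun _ hx => hx.scal hu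
  have hadd : ∀ c ∈ C0 F L, c ∉ S0 F L → ∀ (β : F) (u : Lˣ), (u : L) = c + algebraMap F L β →
      u ∈ Γ := fun c hc hc' β u e => (mΓ u).2 fun x hx => by
    obtain ⟨g, -, g2⟩ := lt_of_big (F := F) (G := G) hx.1 (b := c * x) (fun k => by
      obtain ⟨d, hd⟩ := Submodule.mem_span_singleton.1 k
      rw [Algebra.smul_def, mul_left_inj' hx.1] at hd
      exact hc' (mem_S0.2 ⟨d, hd⟩)) (h.big hn h11 hx hc hc') β
    rw [e, add_mul, ← Algebra.smul_def, ← g2]
    exact (hC hc hx).smul g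
  suffices k : Γ = ⊤ by
    simpa [hb.1] using (mΓ (Units.mk0 (a / b) (div_ne_zero a0 hb.1))).1 (k.ge trivial) b hb
  have hi := Subgroup.relIndex_mul_index hD
  rw [index_CS] at hi
  by_contra hne
  have hle : Γ ≤ C0 F L ⊔ S0 F L := Subgroup.relIndex_eq_one.1 (by
    by_cases hc : Nat.card (Z0 F L) = 1
    · exact Nat.eq_one_of_mul_eq_one_right (hi.trans hc)
    · exact ((Nat.Prime.eq_one_or_self_of_dvd ((dvd_of_Z0 hn hc).1 ▸ hn) _ ⟨_, hi.symm⟩).resolve_right
        fun k => hne (Subgroup.index_eq_one.1 (by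
          rwa [k, mul_eq_left₀ Nat.card_pos.ne'] at hi))))
  have sc : ∀ (r : F) (u : Lˣ), algebraMap F L r = u → u ∈ Γ := fun r u e =>
    hD (Subgroup.mem_sup_right (mem_S0.2 ⟨r, e⟩))
  let A : Subalgebra F L :=
    { carrier := {x | ∀ u : Lˣ, x = u → u ∈ Γ}
      algebraMap_mem' := sc
      mul_mem' := fun {x y} hx hy u e => by
        have k := e ▸ u.ne_zero
        rw [show u = Units.mk0 x (left_ne_zero_of_mul k) * Units.mk0 y (right_ne_zero_of_mul k) from
          Units.ext e.symm]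
        exact mul_mem (hx _ rfl) (hy _ rfl)
      add_mem' := fun {x y} hx hy u e => by
        by_cases x0 : x = 0
        · exact hy u (by rw [← e, x0, zero_add])
        by_cases y0 : y = 0
        · exact hx u (by rw [← e, y0, add_zero])
        lift x to Lˣ using Ne.isUnit x0
        lift y to Lˣ using Ne.isUnit y0
        obtain ⟨c, hc, s, hs, k⟩ := Subgroup.mem_sup.1 (hle (div_mem (hx _ rfl) (hy _ rfl)))
        obtain rfl : x = c * s * y := by rw [k, div_mul_cancel]
        obtain ⟨β, hβ⟩ := mem_S0.1 (inv_mem hs)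
        have k1 : ((u / (s * y) : Lˣ) : L) = c + algebraMap F L β := by
          rw [hβ]; push_cast; rw [← e]; push_cast; field_simp
        rw [← div_mul_cancel u (s * y)]
        refine mul_mem ?_ (mul_mem (hD (Subgroup.mem_sup_right hs)) (hy _ rfl))
        by_cases hc' : c ∈ S0 F L
        · obtain ⟨r, hr⟩ := mem_S0.1 hc'
          exact sc (r + β) _ (by rw [k1, map_add, hr])
        · exact hadd c hc hc' β _ k1 }
  obtain ⟨t, ht, t1⟩ := (Subgroup.bot_or_exists_ne_one (T0 F L)).resolve_left fun k => h.nn (by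
    rw [k, sg, Subgroup.map_bot, Subgroup.bot_subgroupOf]; infer_instance)
  have hA : ⊤ ≤ A := by
    rw [← adjoin_top hn (u := t) fun c e => t1 (Subgroup.mem_bot.1 ((T0_inf_S0 hn h11).le
      ⟨ht, mem_S0.2 ⟨c, e⟩⟩))]
    exact Algebra.adjoin_le (Set.singleton_subset_iff.2 fun u e =>
      Units.ext e ▸ hD (Subgroup.mem_sup_left ht.1))
  exact hne (top_le_iff.1 fun u _ => hA (x := u) trivial u rfl)

end Cfsg.Agent.SNG
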