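import Cfsg.Agent.SNG.Defs

/-! Project SNG: numerical inequalities. -/

set_option autoImplicit false
set_option linter.unusedSectionVars false

namespace Cfsg.Agent.SNG

open MulAction Module
open scoped ComplexConjugate

variable {q n d v : ℕ}

theorem Num.dlt (h : Num q n d v) : d < q := by
  have h1 := h.q2
  have h2 := Nat.le_of_dvd (by omega) h.dq
  omega

theorem numL_pow (r : ℕ) : (r + 11) * (r + 14) + 1 ≤ 8 * 2 ^ (r + 6) := by
  induction r with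
  | zero => norm_num
  | succ r ih =>
    rw [show r + 1 + 6 = (r + 6) + 1 from rfl, pow_succ]
    nlinarith

theorem Num.numL_aux (h : Num q n d v) : ∃ P : ℕ, q ^ n = P * q ^ 5 ∧ q ^ (n - 1) = P * q ^ 4 ∧
    (n + 1) * d ^ 2 < P ∧ n + 1 < P ∧ n * (n + 3) + 1 ≤ 8 * P ∧ P * q ^ 3 ≤ v ∧
    P * q ^ 4 + P * q ^ 3 ≤ d * v := by
  obtain ⟨r, rfl⟩ := Nat.exists_eq_add_of_le' h.n11
  have hq := h.q2
  have hd := h.dlt
  have h2 : 2 ^ (r + 6) ≤ q ^ (r + 6) := Nat.pow_le_pow_left hq _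
  have h3 := numL_pow r
  have h4 : r + 11 + 1 < q ^ (r + 6) := by nlinarith
  have h5 : q ^ (r + 6) * q ^ 4 + q ^ (r + 6) * q ^ 3 ≤ d * v := by
    obtain ⟨s, rfl⟩ := Nat.exists_eq_add_of_le' (show 1 ≤ q by omega)
    have h6 := h.eq
    rw [Nat.add_sub_cancel] at h6
    have h7 : (s + 1) ^ (r + 11) = (s + 1) ^ (r + 6) * (s + 1) ^ 3 * (s + 1) ^ 2 := by ring
    have h8 : 1 ≤ (s + 1) ^ (r + 6) * (s + 1) ^ 3 := Nat.succ_le_of_lt (by positivity)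
    have h9 : (s + 1) ^ (r + 6) * (s + 1) ^ 4 = (s + 1) ^ (r + 6) * (s + 1) ^ 3 * (s + 1) := by ring
    rw [h9]
    generalize (s + 1) ^ (r + 6) * (s + 1) ^ 3 = A at *
    refine Nat.le_of_mul_le_mul_right (c := s) ?_ (by omega)
    nlinarith
  refine ⟨q ^ (r + 6), by ring, by rw [show r + 11 - 1 = r + 6 + 4 by omega, pow_add], ?_, h4,
    by nlinarith, ?_, h5⟩
  · rcases h.d1 with rfl | rfl
    · simpa using h4
    · calc (r + 11 + 1) * (r + 11) ^ 2 < q * q ^ 2 :=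
            Nat.mul_lt_mul_of_le_of_lt hd (Nat.pow_lt_pow_left hd two_ne_zero) (by omega)
        _ = q ^ 3 := by ring
        _ ≤ q ^ (r + 6) := Nat.pow_le_pow_right (by omega) (by omega)
  · refine Nat.le_of_mul_le_mul_right (c := q) ?_ (by omega)
    have h6 : d * v ≤ v * q := by nlinarith
    have h7 : q ^ (r + 6) * q ^ 3 * q = q ^ (r + 6) * q ^ 4 := by ring
    omega

theorem Num.hv1 (h : Num q n d v) {e : ℕ} (he : e ≤ n) : e * (e + 3) + 1 ≤ v := by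
  obtain ⟨P, -, -, -, -, h1, h2, -⟩ := h.numL_aux
  have h3 : 2 ^ 3 ≤ q ^ 3 := Nat.pow_le_pow_left h.q2 _
  have h4 : e * (e + 3) ≤ n * (n + 3) := Nat.mul_le_mul he (by omega)
  nlinarith

theorem Num.hv2 (h : Num q n d v) {e m : ℕ} (he : e ≤ n) (hm : m + 1 ≤ q ^ n) :
    e * m + e * (v - 1) < (v - 1) ^ 2 := by
  obtain ⟨P, -, -, -, h1, -, h2, -⟩ := h.numL_aux
  have hq := h.q2
  have hd := h.dlt
  have h3 := h.eq
  obtain ⟨s, rfl⟩ := Nat.exists_eq_add_of_le' (show 1 ≤ q by omega)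
  rw [Nat.add_sub_cancel] at h3
  have h4 : m ≤ s * s * v := by
    have : d * v * s ≤ s * v * s := Nat.mul_le_mul_right _ (Nat.mul_le_mul_right _ (by omega))
    nlinarith
  have h5 : (n + 2) * (s + 1) ^ 2 ≤ v := by
    have h6 : (s + 1) ^ 2 ≤ (s + 1) ^ 3 := Nat.pow_le_pow_right (by omega) (by omega)
    exact (Nat.mul_le_mul h1 h6).trans h2
  have h6 : n * (s * s + 1) + 2 ≤ v := by nlinarith
  obtain ⟨w, rfl⟩ := Nat.exists_eq_add_of_le' (show 1 ≤ v by omega)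
  rw [Nat.add_sub_cancel]
  have h7 : e * m ≤ n * (s * s * (w + 1)) := Nat.mul_le_mul he h4
  have h8 : e * w ≤ n * (w + 1) := Nat.mul_le_mul he (by omega)
  have h9 : (n * (s * s + 1) + 1) * (w + 1) ≤ w * (w + 1) := Nat.mul_le_mul_right _ (by omega)
  nlinarith

theorem Num.big (h : Num q n d v) {e m k φ : ℕ} (he : e ≤ n) (hm : m + 1 ≤ q ^ n) (hφ : d * v ≤ φ)
    (hk : ((φ : ℝ) - k) ^ 2 * ((v - 1 : ℕ) : ℝ) ^ 2 ≤ k * (e + 1) * (m : ℝ) ^ 2) : q ^ (n - 1) ≤ k := by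
  obtain ⟨P, -, h0, h1, h2, -, h3, h4⟩ := h.numL_aux
  have hq := h.q2
  rw [h0]
  by_contra hlt
  rw [not_le] at hlt
  obtain ⟨c, rfl⟩ := Nat.exists_eq_add_of_le (show k ≤ φ by omega)
  have hc : P * q ^ 3 ≤ c := by omega
  have hk' : c ^ 2 * (v - 1) ^ 2 ≤ k * (e + 1) * m ^ 2 := by
    have : ((k + c : ℕ) : ℝ) - k = c := by push_cast; ring
    rw [this] at hk
    exact_mod_cast hk
  have hqv : q ≤ v := by
    have h5 : q ≤ q ^ 3 := Nat.le_self_pow (by omega) q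
    nlinarith
  obtain ⟨w, rfl⟩ := Nat.exists_eq_add_of_le' (show 1 ≤ v by omega)
  rw [Nat.add_sub_cancel] at hk'
  have hm' : m ≤ d * q * w := by
    have h5 := h.eq
    obtain ⟨s, rfl⟩ := Nat.exists_eq_add_of_le' (show 1 ≤ q by omega)
    rw [Nat.add_sub_cancel] at h5
    have h6 : d * s ≤ d * w := Nat.mul_le_mul_left _ (by omega)
    nlinarith
  have h5 : (P * q ^ 3) ^ 2 * w ^ 2 ≤ P * q ^ 4 * (n + 1) * (d * q * w) ^ 2 :=
    calc (P * q ^ 3) ^ 2 * w ^ 2 ≤ c ^ 2 * w ^ 2 := by gcongr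
      _ ≤ k * (e + 1) * m ^ 2 := hk'
      _ ≤ _ := by gcongr
  have h6 : 0 < P * q ^ 6 * w ^ 2 := by
    have : 0 < P := by omega
    have : 0 < w := by omega
    have : 0 < q := by omega
    positivity
  have h7 : (n + 1) * d ^ 2 * (P * q ^ 6 * w ^ 2) < P * (P * q ^ 6 * w ^ 2) :=
    Nat.mul_lt_mul_of_pos_right h1 h6
  have h8 : (P * q ^ 3) ^ 2 * w ^ 2 = P * (P * q ^ 6 * w ^ 2) := by ring
  have h9 : P * q ^ 4 * (n + 1) * (d * q * w) ^ 2 = (n + 1) * d ^ 2 * (P * q ^ 6 * w ^ 2) := by ring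
  omega

theorem Num.norm (h : Num q n d v) {N : ℕ}
    (hN : N * (q ^ n - 1) ≤ d * (d * q ^ n + N * (q ^ (n - 1) + q ^ 2))) : N < v := by
  obtain ⟨P, h0, h1, -, h2, -, h3, -⟩ := h.numL_aux
  have hq := h.q2
  have hd := h.dlt
  have hn := h.n11
  rw [h0, h1] at hN
  by_contra hlt
  have h4 : P * q ^ 3 ≤ N := h3.trans (not_lt.1 hlt)
  obtain ⟨s, rfl⟩ := Nat.exists_eq_add_of_le' (show 1 ≤ q by omega)
  have hds : d ≤ s := by omega
  have h5 : 1 ≤ P * (s + 1) ^ 5 := Nat.succ_le_of_lt (Nat.mul_pos (by omega) (by positivity))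
  have h6 : N * (P * (s + 1) ^ 5) ≤ N + s * (s * (P * (s + 1) ^ 5) +
      N * (P * (s + 1) ^ 4 + (s + 1) ^ 2)) := by
    have h7 : d * (d * (P * (s + 1) ^ 5) + N * (P * (s + 1) ^ 4 + (s + 1) ^ 2)) ≤
        s * (s * (P * (s + 1) ^ 5) + N * (P * (s + 1) ^ 4 + (s + 1) ^ 2)) := by gcongr
    have h8 : N * (P * (s + 1) ^ 5) = N * (P * (s + 1) ^ 5 - 1) + N := by
      rw [← Nat.mul_succ, Nat.succ_eq_add_one, Nat.sub_add_cancel h5]
    omega
  have h7 : s * s * (P * (s + 1) ^ 5) ≤ N * (s + 1) ^ 4 :=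
    calc s * s * (P * (s + 1) ^ 5) ≤ (s + 1) * (s + 1) * (P * (s + 1) ^ 5) := by gcongr <;> omega
      _ = P * (s + 1) ^ 3 * (s + 1) ^ 4 := by ring
      _ ≤ _ := by gcongr
  have h8 : N * (1 + s * (s + 1) ^ 2) ≤ N * (s + 1) ^ 4 := by
    refine Nat.mul_le_mul_left _ ?_
    nlinarith [Nat.zero_le (s ^ 2), Nat.zero_le (s ^ 3), Nat.zero_le (s ^ 4)]
  have h9 : N * (P * (s + 1) ^ 4) ≤ N * (2 * (s + 1) ^ 4) := by nlinarith
  have h10 : 0 < N := lt_of_lt_of_le (Nat.mul_pos (by omega) (by positivity)) h4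
  have h11 := Nat.le_of_mul_le_mul_right (Nat.le_of_mul_le_mul_left h9 h10) (by positivity)
  omega

end Cfsg.Agent.SNG
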