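import Cfsg.Agent.SNG.Defs
import Mathlib.Data.Set.Card.Arithmetic

/-! Project SNG: counting eigenvectors. -/

set_option autoImplicit false
set_option linter.unusedSectionVars false

namespace Cfsg.Agent.SNG

open MulAction Module Submodule

variable {F : Type*} [Field F] [Fintype F] {p : ℕ} [Fact p.Prime] [CharP F p]
  {G : Type*} [Group G] {V : Type*} [AddCommGroup V] [Module F V] [DistribMulAction G V]
  [SMulCommClass G F V] [Finite V]

theorem card_eigen {g : V ≃ₗ[F] V} (hg : ∀ c : F, ∃ x, g x ≠ c • x) :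
    {x : V | ∃ c : F, g x = c • x}.ncard ≤
      Fintype.card F ^ (finrank F V - 1) + Fintype.card F ^ 2 := by
  classical
  have q1 : 1 ≤ Fintype.card F := Fintype.card_pos
  by_cases hn : finrank F V ≤ 2
  · refine (Set.ncard_le_card _).trans (le_add_left ?_)
    rw [card_top_eq_pow (F := F)]
    exact Nat.pow_le_pow_right q1 hn
  let E : F → Submodule F V := fun c => LinearMap.ker ((g : V →ₗ[F] V) - c • LinearMap.id)
  have mE : ∀ c x, x ∈ E c ↔ g x = c • x := fun c x => by simp [E, sub_eq_zero]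
  have e : {x : V | ∃ c : F, g x = c • x} = ⋃ c, (E c : Set V) := by
    ext x
    simp [mE]
  have hc : ∀ c, (E c : Set V).ncard = Fintype.card F ^ finrank F (E c) := fun c => card_eq_pow (E c)
  rw [e]
  refine (Set.ncard_iUnion_le_of_fintype _).trans ?_
  simp only [hc]
  by_cases h : ∀ c, finrank F (E c) ≤ finrank F V - 2
  · refine le_add_right ((Finset.sum_le_card_nsmul _ _ _ fun c _ => Nat.pow_le_pow_right q1 (h c)).trans ?_)
    rw [Finset.card_univ, smul_eq_mul, ← pow_succ']
    exact Nat.pow_le_pow_right q1 (by omega)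
  · push Not at h
    obtain ⟨c0, h0⟩ := h
    have h1 : finrank F (E c0) < finrank F V := finrank_lt fun e => by
      obtain ⟨x, hx⟩ := hg c0
      exact hx ((mE _ _).1 (e ▸ mem_top))
    have h2 : ∀ c, c ≠ c0 → finrank F (E c) ≤ 1 := fun c hc => by
      have d : E c ⊓ E c0 = ⊥ := eq_bot_iff.2 fun x hx => by
        have : (c - c0) • x = 0 := by rw [sub_smul, ← (mE _ _).1 hx.1, ← (mE _ _).1 hx.2, sub_self]
        exact (smul_eq_zero.1 this).resolve_left (sub_ne_zero.2 hc)
      have := finrank_sup_add_finrank_inf_eq (E c) (E c0)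
      rw [d, finrank_bot] at this
      have := finrank_le (E c ⊔ E c0)
      omega
    rw [← Finset.add_sum_erase _ _ (Finset.mem_univ c0)]
    refine add_le_add (Nat.pow_le_pow_right q1 (by omega)) ((Finset.sum_le_card_nsmul _ _ _ fun c hc =>
      Nat.pow_le_pow_right q1 (h2 c (Finset.ne_of_mem_erase hc))).trans ?_)
    rw [smul_eq_mul, pow_one, sq]
    exact Nat.mul_le_mul_right _ (Finset.card_le_univ _)

theorem Orb.stab (O : Subgroup (V ≃ₗ[F] V)) [Finite O] {d : ℕ} {x : V} (x0 : x ≠ 0)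
    (h : {y : V | ∃ g ∈ O, ∃ c : F, c ≠ 0 ∧ y = c • g x}.ncard ≤ d * (Fintype.card F - 1)) :
    Nat.card O ≤ d * {g : O | ∃ c : F, g.1 x = c • x}.ncard := by
  let _ : MulAction (O × Fˣ) V :=
    { smul := fun k y => (k.2 : F) • k.1.1 y
      one_smul := fun y => one_smul F y
      mul_smul := fun k l y => by
        change ((k.2 * l.2 : Fˣ) : F) • k.1.1 (l.1.1 y) = (k.2 : F) • k.1.1 ((l.2 : F) • l.1.1 y)
        rw [map_smul, smul_smul, Units.val_mul] }
  have sm : ∀ (k : O × Fˣ) (y : V), k • y = (k.2 : F) • k.1.1 y := fun _ _ => rfl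
  have e1 := (stabilizer (O × Fˣ) x).index_mul_card
  rw [index_stabilizer, Nat.card_prod, Nat.card_units, Nat.card_eq_fintype_card (α := F)] at e1
  have e2 : orbit (O × Fˣ) x = {y : V | ∃ g ∈ O, ∃ c : F, c ≠ 0 ∧ y = c • g x} := by
    ext y
    constructor
    · rintro ⟨k, rfl⟩
      exact ⟨k.1.1, k.1.2, k.2, k.2.ne_zero, rfl⟩
    · rintro ⟨g, hg, c, hc, rfl⟩
      exact ⟨(⟨g, hg⟩, Units.mk0 c hc), rfl⟩
  have e3 : Nat.card (stabilizer (O × Fˣ) x) ≤ {g : O | ∃ c : F, g.1 x = c • x}.ncard := by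
    refine Nat.card_le_card_of_injective (β := {g : O | ∃ c : F, g.1 x = c • x})
      (fun k => ⟨k.1.1, (k.1.2⁻¹ : Fˣ), ?_⟩) fun k l e => ?_
    · have : (k.1.2 : F) • k.1.1.1 x = x := k.2
      exact ((congrArg (((k.1.2⁻¹ : Fˣ) : F) • ·) this).symm.trans (by
        simp only [smul_smul, Units.inv_mul, one_smul])).symm
    · have a : k.1.1 = l.1.1 := congrArg Subtype.val e
      have b : (k.1.2 : F) • k.1.1.1 x = x := k.2
      have c : (l.1.2 : F) • l.1.1.1 x = x := l.2
      refine Subtype.ext (Prod.ext a (Units.ext (smul_left_injective F (m := l.1.1.1 x) ?_ ?_)))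
      · exact fun e => x0 (by rw [← c, e, smul_zero])
      · exact (a ▸ b).trans c.symm
  have q1 : 0 < Fintype.card F - 1 := Nat.sub_pos_of_lt Fintype.one_lt_card
  refine Nat.le_of_mul_le_mul_right ?_ q1
  rw [← e1, e2, mul_right_comm]
  exact Nat.mul_le_mul h e3

theorem small_orbits (O : Subgroup (V ≃ₗ[F] V)) {d : ℕ}
    (hZ : {g : V ≃ₗ[F] V | g ∈ O ∧ ∃ c : F, ∀ x, g x = c • x}.ncard ≤ d)
    (horb : ∀ x : V, x ≠ 0 →
      {y : V | ∃ g ∈ O, ∃ c : F, c ≠ 0 ∧ y = c • g x}.ncard ≤ d * (Fintype.card F - 1)) :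
    Nat.card O * (Fintype.card F ^ finrank F V - 1) ≤ d * (d * Fintype.card F ^ finrank F V +
      Nat.card O * (Fintype.card F ^ (finrank F V - 1) + Fintype.card F ^ 2)) := by
  classical
  have : Finite (V ≃ₗ[F] V) := Finite.of_injective (fun f => (f : V → V)) DFunLike.coe_injective
  have := Fintype.ofFinite V
  have := Fintype.ofFinite O
  have cV : Fintype.card V = Fintype.card F ^ finrank F V := by
    rw [← Nat.card_eq_fintype_card, card_top_eq_pow (F := F)]
  have dc : ∑ x : V, (Finset.univ.filter fun g : O => ∃ c : F, g.1 x = c • x).card =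
      ∑ g : O, (Finset.univ.filter fun x : V => ∃ c : F, g.1 x = c • x).card := by
    simp only [Finset.card_filter]
    exact Finset.sum_comm
  have lo : Nat.card O * (Fintype.card F ^ finrank F V - 1) ≤
      d * ∑ x : V, (Finset.univ.filter fun g : O => ∃ c : F, g.1 x = c • x).card := by
    rw [Finset.mul_sum, ← cV, ← Finset.card_univ, ← Finset.card_erase_of_mem (Finset.mem_univ (0 : V)), mul_comm,
      ← smul_eq_mul]
    refine (Finset.card_nsmul_le_sum _ _ _ fun x hx => ?_).trans
      (Finset.sum_le_sum_of_subset (Finset.erase_subset _ _))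
    have := Orb.stab O (Finset.ne_of_mem_erase hx) (horb x (Finset.ne_of_mem_erase hx))
    rwa [Set.ncard_eq_toFinset_card', Set.toFinset_ofPred] at this
  refine lo.trans (Nat.mul_le_mul_left _ ?_)
  rw [dc, ← Finset.sum_filter_add_sum_filter_not _ fun g : O => ∃ c : F, ∀ x, g.1 x = c • x]
  refine add_le_add ((Finset.sum_le_card_nsmul _ _ _ fun g _ => (Finset.card_le_univ _).trans cV.le).trans ?_)
    ((Finset.sum_le_card_nsmul _ _ (Fintype.card F ^ (finrank F V - 1) + Fintype.card F ^ 2) fun g hg => ?_).trans ?_)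
  · refine Nat.mul_le_mul_right _ (le_trans ?_ hZ)
    rw [← Set.ncard_coe_finset]
    exact Set.ncard_le_ncard_of_injOn Subtype.val (fun g hg => ⟨g.2, by simpa using hg⟩)
      Subtype.val_injective.injOn
  · have := card_eigen (g := g.1) (by simpa using hg)
    rwa [Set.ncard_eq_toFinset_card', Set.toFinset_ofPred] at this
  · rw [Nat.card_eq_fintype_card]
    exact Nat.mul_le_mul_right _ (Finset.card_le_univ _)

end Cfsg.Agent.SNG
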