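import Cfsg.Agent.SNG.Defs
import Mathlib.FieldTheory.Finite.GaloisField
import Mathlib.NumberTheory.Multiplicity
import Mathlib.Algebra.Algebra.Subalgebra.IsSimpleOrder

/-! Arithmetic of the Singer cycle. -/

set_option autoImplicit false
set_option linter.unusedSectionVars false

namespace Cfsg.Agent.SNG

open MulAction Module
open scoped ComplexConjugate

variable {F L : Type*} [Field F] [Fintype F] [Field L] [Algebra F L] [Finite L]
  {G : Subgroup (L ≃ₗ[F] L)}

theorem mu_inj : Function.Injective (mu F L) := fun u u' h => Units.ext <| by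
  have := LinearEquiv.congr_fun h 1
  rwa [mu_apply, mu_apply, mul_one, mul_one] at this

theorem det_mu (u : Lˣ) : LinearMap.det (mu F L u : L →ₗ[F] L) = Algebra.norm F (u : L) := by
  rw [Algebra.norm_apply]
  exact congrArg _ (LinearMap.ext fun _ => rfl)

theorem mem_C0 {u : Lˣ} : u ∈ C0 F L ↔ Algebra.norm F (u : L) = 1 := by
  rw [C0, MonoidHom.mem_ker, Units.ext_iff]
  rfl

theorem mem_S0 {u : Lˣ} : u ∈ S0 F L ↔ ∃ c : F, algebraMap F L c = u := by
  constructor
  · rintro ⟨c, rfl⟩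
    exact ⟨c, rfl⟩
  · rintro ⟨c, hc⟩
    have c0 : c ≠ 0 := by
      rintro rfl
      exact u.ne_zero (hc.symm.trans (map_zero _))
    exact ⟨Units.mk0 c c0, Units.ext hc⟩

theorem mem_Z0 {u : Lˣ} : u ∈ Z0 F L ↔ ∃ c : F, algebraMap F L c = u ∧ c ^ finrank F L = 1 := by
  rw [Z0, Subgroup.mem_inf, mem_C0, mem_S0]
  constructor
  · rintro ⟨h, c, hc⟩
    exact ⟨c, hc, by rw [← Algebra.norm_algebraMap, hc, h]⟩
  · rintro ⟨c, hc, h⟩
    exact ⟨by rw [← hc, Algebra.norm_algebraMap, h], c, hc⟩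

namespace Sing

variable (F L)

theorem sc_inj : Function.Injective (Units.map (algebraMap F L : F →* L)) :=
  Units.map_injective (algebraMap F L).injective

theorem card_Fu : Nat.card Fˣ = Fintype.card F - 1 := by rw [Nat.card_units, Nat.card_eq_fintype_card]

theorem card_S0 : Nat.card (S0 F L) = Fintype.card F - 1 := by
  rw [← card_Fu, S0]
  exact (Nat.card_congr (MonoidHom.ofInjective (sc_inj F L)).toEquiv).symm

theorem index_C0 : (C0 F L).index = Fintype.card F - 1 := by
  rw [C0, Subgroup.index_ker, MonoidHom.range_eq_top.2 (FiniteField.unitsMap_norm_surjective F L),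
    Subgroup.card_top, card_Fu]

theorem card_mul : Nat.card (C0 F L) * (Fintype.card F - 1) + 1 = Fintype.card F ^ finrank F L := by
  rw [← index_C0 F L, Subgroup.card_mul_index, Nat.card_units, ← card_top_eq_pow]
  exact Nat.sub_add_cancel Nat.card_pos

theorem card_Z0 : Nat.card (Z0 F L) = (Fintype.card F - 1).gcd (finrank F L) := by
  have : Z0 F L = (powMonoidHom (finrank F L) : Fˣ →* Fˣ).ker.map (Units.map (algebraMap F L : F →* L)) := by
    ext u
    rw [mem_Z0]
    constructor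
    · rintro ⟨c, hc, h⟩
      obtain ⟨c', rfl⟩ := (mem_S0 (F := F)).2 ⟨c, hc⟩
      obtain rfl : c = c' := (algebraMap F L).injective hc
      exact ⟨c', Units.ext (by simpa using h), rfl⟩
    · rintro ⟨c, hc, rfl⟩
      exact ⟨c, rfl, by simpa using congrArg Units.val (MonoidHom.mem_ker.1 hc)⟩
  rw [this, Subgroup.card_map_of_injective (sc_inj F L), IsCyclic.card_powMonoidHom_ker, card_Fu]

theorem card_ker {k : ℕ} (h : k ∣ Nat.card (C0 F L)) : Nat.card (powMonoidHom k : Lˣ →* Lˣ).ker = k := by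
  rw [IsCyclic.card_powMonoidHom_ker]
  exact Nat.gcd_eq_right (h.trans (Subgroup.card_subgroup_dvd_card _))

theorem C0_eq : C0 F L = (powMonoidHom (Nat.card (C0 F L)) : Lˣ →* Lˣ).ker :=
  Subgroup.eq_of_le_of_card_ge (fun u hu => congrArg Subtype.val (pow_card_eq_one' (x := (⟨u, hu⟩ : C0 F L))))
    (card_ker F L dvd_rfl).le

theorem Z0_dvd : Nat.card (Z0 F L) ∣ Nat.card (C0 F L) := Subgroup.card_dvd_of_le inf_le_left

theorem card_T0 : Nat.card (Z0 F L) * Nat.card (T0 F L) = Nat.card (C0 F L) := by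
  have h := Nat.div_dvd_of_dvd (Z0_dvd F L)
  have : T0 F L = (powMonoidHom (Nat.card (C0 F L) / Nat.card (Z0 F L)) : Lˣ →* Lˣ).ker := by
    refine inf_eq_right.2 fun u hu => ?_
    obtain ⟨k, hk⟩ := h
    rw [C0_eq, MonoidHom.mem_ker, powMonoidHom_apply, hk, pow_mul, show u ^ _ = 1 from hu, one_pow]
  rw [this, card_ker F L h, Nat.mul_div_cancel' (Z0_dvd F L)]

theorem geom {s n θ : ℕ} (hs : 0 < s) (h : θ * s + 1 = (s + 1) ^ n) : θ = ∑ i ∈ Finset.range n, (s + 1) ^ i := by
  rw [← geom_sum_mul_add s n] at h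
  exact Nat.eq_of_mul_eq_mul_right hs (Nat.add_right_cancel h)

theorem arith {s n d v : ℕ} (hs : 0 < s) (hn : n.Prime) (h2 : n ≠ 2) (hd : d = s.gcd n)
    (h : d * v * s + 1 = (s + 1) ^ n) : v.Coprime s ∧ v.Coprime n := by
  have hθ := geom hs h
  have cn : v.Coprime n := by
    refine ((Nat.Prime.coprime_iff_not_dvd hn).2 fun hv => ?_).symm
    haveI := Fact.mk hn
    have h1 : n ∣ s := by
      have k := congrArg (Nat.cast : ℕ → ZMod n) h
      push_cast at k
      rw [ZMod.pow_card, (ZMod.natCast_eq_zero_iff v n).2 hv, mul_zero, zero_mul, add_left_inj] at k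
      exact (ZMod.natCast_eq_zero_iff s n).1 k.symm
    obtain rfl : d = n := hd.trans (Nat.gcd_eq_right h1)
    obtain ⟨b, rfl⟩ := h1
    have h3 := odd_sq_dvd_geom_sum₂_sub (R := ℤ) 1 b (hn.odd_of_ne_two h2)
    simp only [one_pow, mul_one] at h3
    have h4 : ((d * v : ℕ) : ℤ) = ∑ i ∈ Finset.range d, (1 + (d : ℤ) * b) ^ i := by
      rw [hθ]; push_cast; simp only [add_comm]
    have h5 : (d : ℤ) ^ 2 ∣ ((d * v : ℕ) : ℤ) := by
      rw [pow_two]; exact_mod_cast Nat.mul_dvd_mul_left d hv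
    rw [← h4] at h3
    have h6 : (d : ℤ) ^ 2 ∣ d := by simpa using dvd_sub h5 h3
    have h7 : d * d ∣ d * 1 := by rw [mul_one, ← pow_two]; exact_mod_cast h6
    exact hn.one_lt.ne' (Nat.dvd_one.1 (Nat.dvd_of_mul_dvd_mul_left hn.pos h7))
  refine ⟨?_, cn⟩
  have h1 : d * v ≡ n [MOD s] := by
    rw [hθ]
    generalize n = k
    induction k with
    | zero => rfl
    | succ k ih =>
      rw [Finset.sum_range_succ]
      exact ih.add (by simpa using (show s + 1 ≡ 1 [MOD s] by simp [Nat.ModEq]).pow k)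
  have h3 : v.gcd s ∣ n :=
    (h1.dvd_iff (Nat.gcd_dvd_right v s)).1 ((Nat.gcd_dvd_left v s).mul_left d)
  exact (cn.coprime_dvd_left (Nat.gcd_dvd_left v s)).eq_one_of_dvd h3

end Sing

open Sing

theorem num (hn : (finrank F L).Prime) (h11 : 11 ≤ finrank F L) :
    Num (Fintype.card F) (finrank F L) (Nat.card (Z0 F L)) (Nat.card (T0 F L)) := by
  have q2 : 2 ≤ Fintype.card F := Fintype.one_lt_card
  have e := card_mul F L
  rw [← card_T0] at e
  obtain ⟨c1, c2⟩ := arith (s := Fintype.card F - 1) (by omega) hn (by omega) (card_Z0 F L)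
    (e.trans (by rw [Nat.sub_add_cancel (by omega)]))
  refine ⟨q2, hn, h11, e, ?_, ?_, c1, c2⟩
  · rw [card_Z0]; exact (Nat.dvd_prime hn).1 (Nat.gcd_dvd_right _ _)
  · rw [card_Z0]; exact Nat.gcd_dvd_left _ _

theorem dvd_of_Z0 (hn : (finrank F L).Prime) (h : Nat.card (Z0 F L) ≠ 1) :
    Nat.card (Z0 F L) = finrank F L ∧ finrank F L ∣ Fintype.card F - 1 := by
  rw [card_Z0] at h ⊢
  have := ((Nat.dvd_prime hn).1 (Nat.gcd_dvd_right (Fintype.card F - 1) _)).resolve_left h
  exact ⟨this, this ▸ Nat.gcd_dvd_left _ _⟩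

theorem T0_sup_Z0 (hn : (finrank F L).Prime) (h11 : 11 ≤ finrank F L) :
    T0 F L ⊔ Z0 F L = C0 F L := by
  have h := num hn h11
  refine Subgroup.eq_of_le_of_card_ge (sup_le inf_le_left inf_le_left) (Nat.le_of_dvd Nat.card_pos ?_)
  rw [← card_T0]
  exact (h.cq.coprime_dvd_right h.dq).symm.mul_dvd_of_dvd_of_dvd (Subgroup.card_dvd_of_le le_sup_right)
    (Subgroup.card_dvd_of_le le_sup_left)

theorem T0_inf_S0 (hn : (finrank F L).Prime) (h11 : 11 ≤ finrank F L) : T0 F L ⊓ S0 F L = ⊥ := by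
  have h := (num hn h11).cq
  rw [← card_S0 F L] at h
  exact disjoint_iff.1 (Subgroup.disjoint_of_coprime_natCard h)

theorem card_C0 (hn : (finrank F L).Prime) (h11 : 11 ≤ finrank F L) :
    Nat.card (C0 F L) = Nat.card (Z0 F L) * Nat.card (T0 F L) := (card_T0 F L).symm

theorem index_CS : (C0 F L ⊔ S0 F L).index = Nat.card (Z0 F L) := by
  have h1 := Subgroup.relIndex_mul_index (show C0 F L ≤ C0 F L ⊔ S0 F L from le_sup_left)
  have h2 := Subgroup.relIndex_mul_relIndex ⊥ (Z0 F L) (S0 F L) bot_le inf_le_right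
  rw [Subgroup.relIndex_bot_left, Subgroup.relIndex_bot_left, card_S0, Z0, Subgroup.inf_relIndex_right,
    mul_comm] at h2
  rw [Subgroup.relIndex_sup_left, index_C0, ← h2] at h1
  exact Nat.eq_of_mul_eq_mul_left (Nat.pos_of_ne_zero Subgroup.index_ne_zero_of_finite) h1

theorem adjoin_top (hn : (finrank F L).Prime) {u : L} (hu : ∀ c : F, algebraMap F L c ≠ u) :
    Algebra.adjoin F {u} = ⊤ := by
  refine ((Subalgebra.isSimpleOrder_of_finrank_prime F L hn).eq_bot_or_eq_top _).resolve_left fun h => ?_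
  have : u ∈ Algebra.adjoin F {u} := Algebra.self_mem_adjoin_singleton F u
  rw [h, Algebra.mem_bot] at this
  obtain ⟨c, hc⟩ := this
  exact hu c hc

/-- a linear map commuting with a non-scalar multiplication is a multiplication -/
theorem comm_mul (hn : (finrank F L).Prime) {u : L} (hu : ∀ c : F, algebraMap F L c ≠ u)
    {g : L →ₗ[F] L} (h : ∀ x, g (u * x) = u * g x) (x : L) : g x = g 1 * x := by
  have key : ∀ a ∈ Algebra.adjoin F {u}, ∀ y, g (a * y) = a * g y := fun a ha => by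
    induction ha using Algebra.adjoin_induction with
    | mem a ha => rw [Set.mem_singleton_iff.1 ha]; exact h
    | algebraMap c => exact fun y => by rw [← Algebra.smul_def, ← Algebra.smul_def, map_smul]
    | add a b _ _ ha hb => exact fun y => by rw [add_mul, map_add, ha, hb, add_mul]
    | mul a b _ _ ha hb => exact fun y => by rw [mul_assoc, ha, hb, mul_assoc]
  have := key x (adjoin_top hn hu ▸ Algebra.mem_top) 1
  rwa [mul_one, mul_comm] at this

end Cfsg.Agent.SNG
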