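import Cfsg.Agent.SNG.Good
import Cfsg.Agent.SNG.Loc
import Cfsg.Agent.SNG.Geo0

set_option autoImplicit false
set_option linter.unusedSectionVars false

namespace Cfsg.Agent.SNG

open MulAction Module
open scoped ComplexConjugate

variable {F L : Type*} [Field F] [Fintype F] [Field L] [Algebra F L] [Finite L]
  {G : Subgroup (L ≃ₗ[F] L)}

namespace TTsAux

open Submodule

theorem nm {a : L} (a0 : a ≠ 0) {c : Lˣ} (hc : c ∉ S0 F L) : (c : L) * a ∉ span F {a} := fun k => by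
  obtain ⟨t, ht⟩ := mem_span_singleton.1 k
  rw [Algebra.smul_def] at ht
  exact hc (mem_S0.2 ⟨t, mul_right_cancel₀ a0 ht⟩)

theorem pigeon (hn : (finrank F L).Prime) (h11 : 11 ≤ finrank F L) {x y : L} (x0 : x ≠ 0)
    (hy : y ∉ span F {x}) : ∃ (a : L) (c : Lˣ), a ≠ 0 ∧ c ∈ C0 F L ∧ c ∉ S0 F L ∧
      span F {a, c * a} = span F {x, y} := by
  have nx := notMem_l1_symm x0 hy
  have ne : ∀ β : F, x + β • y ≠ 0 := fun β e =>
    nx (mem_span_singleton.2 ⟨-β, by rw [neg_smul, eq_neg_of_add_eq_zero_left e]⟩)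
  let f : F → Lˣ ⧸ (C0 F L ⊔ S0 F L) := fun β => (Units.mk0 _ (ne β) : Lˣ)
  obtain ⟨β, β', hne, e⟩ : ∃ β β', β ≠ β' ∧ f β = f β' := by
    by_contra hc
    push Not at hc
    have := Nat.card_le_card_of_injective f fun β β' e => by_contra fun k => hc β β' k e
    rw [← Subgroup.index, index_CS, Nat.card_eq_fintype_card] at this
    exact absurd (num hn h11).dlt (by omega)
  obtain ⟨c, hc, s, hs, e2⟩ := Subgroup.mem_sup.1 (QuotientGroup.eq.1 e)
  obtain ⟨t, ht⟩ := mem_S0.1 hs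
  have e3 : t • ((c : L) * (x + β • y)) = x + β' • y := by
    have := congrArg Units.val (eq_inv_mul_iff_mul_eq.1 e2)
    simp only [Units.val_mul, Units.val_mk0] at this
    rw [← this, Algebra.smul_def, ht]; ring
  have t0 : t ≠ 0 := by
    rintro rfl
    exact ne β' (by rw [← e3, zero_smul])
  have m : ∀ β : F, x + β • y ∈ span F {x, y} := fun β =>
    add_mem (left_l2 x y) (smul_mem _ _ (right_l2 x y))
  have hc' : c ∉ S0 F L := fun k => by
    obtain ⟨r, hr⟩ := mem_S0.1 k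
    rw [← hr, ← Algebra.smul_def, smul_smul] at e3
    obtain ⟨φ, h1, h2⟩ := sep2 x0 hy (1 : F) 0
    obtain ⟨ψ, h3, h4⟩ := sep2 x0 hy (0 : F) 1
    have k1 := congrArg φ e3
    have k2 := congrArg ψ e3
    simp only [map_smul, map_add, h1, h2, h3, h4, smul_eq_mul, mul_zero, add_zero, mul_one,
      zero_add] at k1 k2
    exact hne (by rw [← k2, k1, one_mul])
  refine ⟨x + β • y, c, ne β, hc, hc', eq_of_le_of_finrank_eq (l2_le (m β) ?_) ?_⟩
  · rw [← (span F {x, y}).smul_mem_iff t0, e3]; exact m β'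
  · rw [rk_l2 (ne β) (nm (ne β) hc'), rk_l2 x0 hy]

end TTsAux

open TTsAux Submodule in
theorem MinOv.tt (h : MinOv G) (hn : (finrank F L).Prime) (h11 : 11 ≤ finrank F L) :
    TT F G L := by
  have lt1 : ∀ {a : L} {c : Lˣ}, a ≠ 0 → c ∈ C0 F L → c ∉ S0 F L → LT F G a (c * a) :=
    fun a0 hc hc' => lt_of_big a0 (nm a0 hc') (h.big hn h11 (h.good hn h11 a0) hc hc')
  have hlt : ∀ x y : L, x ≠ 0 → y ∉ span F {x} → LT F G x y := fun x y x0 hy => by
    obtain ⟨a, c, a0, hc, hc', e⟩ := pigeon hn h11 x0 hy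
    refine LT.plane (lt1 a0 hc hc') ?_ (e ▸ left_l2 x y) (e ▸ right_l2 x y) x0 hy
    simpa using lt1 (mul_ne_zero c.ne_zero a0) (inv_mem hc) fun k => hc' (inv_mem_iff.1 k)
  have af : AF F G L := af_of_lt (fun a b => trans_of_lt (by omega) hlt) hlt
  obtain ⟨p, hp⟩ := CharP.exists F
  have : Fact p.Prime := ⟨CharP.char_is_prime F p⟩
  have : Finite (L ≃ₗ[F] L) := finite_gl
  obtain ⟨T⟩ : Nonempty (Sylow p G) := inferInstance
  obtain ⟨x, y, loc⟩ := exists_loc af (by omega) T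
  obtain ⟨W, g⟩ := loc.exists_geo0
  obtain ⟨a, c, a0, hc, hc', e⟩ := pigeon hn h11 g.x0 g.yx
  have am : a ∈ span F {x, y} := e ▸ left_l2 _ _
  have h1 : span F {x, y} ≤ W a :=
    l2_le (g.symm x a a0 (l2_le (g.self x) g.ymem am))
      (g.symm y a a0 (l2_le (g.symm x y (ne0_of_notMem g.yx) g.ymem) (g.self y) am))
  have h2 : (c : L) * a ∈ W a := h1 (e ▸ right_l2 _ _)
  have h3 : orbit (stabilizer G a) ((c : L) * a) ⊂ (W a : Set L) := by
    refine ⟨?_, fun k => ?_⟩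
    · rintro _ ⟨k, rfl⟩
      have := g.eqv k a _ h2
      rwa [show (k : G) • a = a from k.2] at this
    · obtain ⟨k, hk⟩ := k (W a).zero_mem
      exact smul_ne (g := (k : G)) (mul_ne_zero c.ne_zero a0) hk
  have h4 := (h.big hn h11 (h.good hn h11 a0) hc hc').trans_lt (Set.ncard_lt_ncard h3 (Set.toFinite _))
  rw [← Nat.card_coe_set_eq, show Nat.card (W a : Set L) = _ from card_eq_pow (W a)] at h4
  have h5 := (Nat.pow_lt_pow_iff_right Fintype.one_lt_card).1 h4
  have h6 := finrank_le (W a)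
  refine g.tt (eq_top_of_finrank_eq ?_) (by omega)
  rw [g.rk_eq g.x0 a0]
  omega

end Cfsg.Agent.SNG
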